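import Cfsg.Statements.S0310
import Cfsg.Agent.H1.BN

set_option autoImplicit false
open Cfsg

namespace Cfsg.Agent.S0310

/-- For a set `J` of distinguished generators, the subgroup generated by `B` and `J` is exactly the union of
the double cosets `B n B` with `n` in the subgroup generated by `J` (so `B W_J B` is a subgroup). -/
theorem result {G : Type*} [Group G] (P : Cfsg.BNPair G) {J : Set G}
    (hJ : J ⊆ P.S) (g : G) :
    g ∈ P.parabolic J ↔ ∃ n ∈ Subgroup.closure J, g ∈ DoubleCoset.doubleCoset n (P.B : Set G) P.B := by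
  constructor
  · intro hg
    obtain ⟨l, hl, hg⟩ := (H1.mem_parabolic_iff hJ).1 hg
    have key : ∀ l : List P.S, (∀ s ∈ l, (s : G) ∈ J) →
        ∃ n : P.N, (n : G) ∈ Subgroup.closure J ∧ H1.wprod (H1.sref P) l = n := by
      intro l hl
      induction l with
      | nil => exact ⟨1, Subgroup.one_mem _, rfl⟩
      | cons s l ih =>
        obtain ⟨n, hn, hn'⟩ := ih (fun t ht => hl t (List.mem_cons_of_mem _ ht))
        refine ⟨(⟨(s : G), P.subset s.2⟩ : P.N) * n,
          Subgroup.mul_mem _ (Subgroup.subset_closure (hl s List.mem_cons_self)) hn, ?_⟩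
        rw [H1.wprod_cons, hn']
        rfl
    obtain ⟨n, hn, hn'⟩ := key l hl
    rw [hn', H1.cell_mk_eq] at hg
    exact ⟨n, hn, hg⟩
  · rintro ⟨n, hn, hg⟩
    obtain ⟨b, hb, b', hb', rfl⟩ := DoubleCoset.mem_doubleCoset.1 hg
    have h1 : Subgroup.closure J ≤ P.parabolic J := le_sup_right
    exact Subgroup.mul_mem _ (Subgroup.mul_mem _ (H1.le_parabolic J hb) (h1 hn))
      (H1.le_parabolic J hb')

end Cfsg.Agent.S0310
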