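import Cfsg.Statements.S0316
import Cfsg.Agent.H1.BN

set_option autoImplicit false
open Cfsg

namespace Cfsg.Agent.S0316

/-- The map `J ↦ P_J` is a lattice isomorphism from the power set of the set of distinguished generators onto the
subgroups containing `B`. -/
theorem result {G : Type*} [Group G] (P : Cfsg.BNPair G) :
    ∃ e : Set P.S ≃o {M : Subgroup G // P.B ≤ M},
      ∀ J : Set P.S, ((e J : {M : Subgroup G // P.B ≤ M}) : Subgroup G) = P.parabolic (Subtype.val '' J) := by
  have hsub : ∀ J : Set P.S, Subtype.val '' J ⊆ P.S := by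
    rintro J _ ⟨s, _, rfl⟩
    exact s.2
  refine ⟨{ toFun := fun J => ⟨P.parabolic (Subtype.val '' J), H1.le_parabolic _⟩
            invFun := fun M => {s | (s : G) ∈ M.1}
            left_inv := ?_
            right_inv := ?_
            map_rel_iff' := ?_ }, fun J => rfl⟩
  · intro J
    ext s
    simp only [Set.mem_setOf_eq]
    constructor
    · intro h
      obtain ⟨t, ht, hts⟩ := H1.mem_of_mem_parabolic (hsub J) s.2 h
      rwa [← Subtype.ext hts]
    · intro h
      exact H1.subset_parabolic _ ⟨s, h, rfl⟩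
  · intro M
    apply Subtype.ext
    simp only
    conv_rhs => rw [H1.eq_parabolic_of_le M.2]
    congr 1
    ext x
    constructor
    · rintro ⟨s, hs, rfl⟩
      exact ⟨s.2, hs⟩
    · rintro ⟨h1, h2⟩
      exact ⟨⟨x, h1⟩, h2, rfl⟩
  · intro J K
    simp only [Equiv.coe_fn_mk, Subtype.mk_le_mk]
    constructor
    · intro h s hs
      have h1 : (s : G) ∈ P.parabolic (Subtype.val '' K) := h (H1.subset_parabolic _ ⟨s, hs, rfl⟩)
      obtain ⟨t, ht, hts⟩ := H1.mem_of_mem_parabolic (hsub K) s.2 h1
      rwa [← Subtype.ext hts]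
    · intro h
      exact sup_le_sup_left (Subgroup.closure_mono (Set.image_mono h)) _

end Cfsg.Agent.S0316
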