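import Cfsg.Statements.S0319
import Cfsg.Agent.H1.BN

set_option autoImplicit false
open Cfsg

namespace Cfsg.Agent.S0319

theorem commute_of_normal {G : Type*} [Group G] (P : Cfsg.BNPair G) (H : Subgroup G) [hH : H.Normal]
    (s t : P.S) (hs : (s : G) ∈ H ⊔ P.B) (ht : (t : G) ∉ H ⊔ P.B) :
    (s : G) * t * (s : G)⁻¹ * (t : G)⁻¹ ∈ P.B := by
  have hB : P.B ≤ H ⊔ P.B := le_sup_right
  have hst : s ≠ t := fun h => ht (h ▸ hs)
  obtain ⟨h, hh, b, hb, hhb⟩ := Subgroup.mem_sup_of_normal_left.1 hs
  have h1 : h ∈ H1.cell P (H1.sref P s) := by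
    have := H1.mul_mem_cell_right (H1.sref_mem_cell s) (P.B.inv_mem hb)
    rwa [← hhb, mul_inv_cancel_right] at this
  have h3 : (t : G)⁻¹ ∈ H1.cell P (H1.sref P t) := by
    have := H1.inv_mem_cell (H1.sref_mem_cell t)
    rwa [H1.sref_inv] at this
  have hlen : H1.len (H1.sref P) (H1.sref P s * H1.sref P t) = 2 := by
    have a1 := H1.len_sref_mul_ne s (H1.sref P t)
    have a2 := (H1.invol_gen (P := P)).len_simple_mul_le s (H1.sref P t)
    rw [H1.len_sref] at a1 a2
    have a3 : H1.len (H1.sref P) (H1.sref P s * H1.sref P t) ≠ 0 := by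
      intro h0
      have := (H1.invol_gen (P := P)).eq_one_of_len h0
      apply hst
      apply H1.sref_injective
      rw [← H1.sref_inv t]
      exact eq_inv_of_mul_eq_one_left this
    omega
  have h4 : h * (t : G)⁻¹ ∈ H1.cell P (H1.sref P s * H1.sref P t) :=
    H1.mul_mem_cell_of_le s (by rw [hlen, H1.len_sref]; omega) h1 h3
  have h5 : (t : G) * (h * (t : G)⁻¹) ∈ H ⊔ P.B := by
    rw [← mul_assoc]
    exact (le_sup_left : H ≤ _) (hH.conj_mem h hh t)
  rcases H1.mul_mem_cell_or t (H1.sref_mem_cell t) h4 with h6 | h6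
  · by_cases hle : H1.len (H1.sref P) (H1.sref P t * H1.wprod (H1.sref P) [s, t]) ≤
        H1.len (H1.sref P) (H1.wprod (H1.sref P) [s, t])
    · obtain ⟨l₁, l₂, j, hl, hj⟩ := (H1.bn_exchange (P := P)).exch t [s, t] hle
      have hcomm : H1.sref P t * H1.sref P s = H1.sref P s * H1.sref P t := by
        cases l₁ with
        | nil =>
          simp only [List.nil_append, List.cons.injEq] at hl
          simp only [H1.wprod_nil, mul_one, one_mul] at hj
          exact absurd (hl.1.trans (H1.sref_injective hj).symm) hst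
        | cons a l₁ =>
          simp only [List.cons_append, List.cons.injEq] at hl
          obtain ⟨rfl, hl⟩ := hl
          cases l₁ with
          | nil =>
            simp only [List.nil_append, List.cons.injEq] at hl
            rw [← hl.1] at hj
            simpa using hj
          | cons a l₁ => simp at hl
      have : ((⟨(s : G), P.subset s.2⟩ * ⟨(t : G), P.subset t.2⟩ * (⟨(s : G), P.subset s.2⟩ : P.N)⁻¹ *
          (⟨(t : G), P.subset t.2⟩ : P.N)⁻¹ : P.N) : H1.Weyl P) = 1 := by
        change H1.sref P s * H1.sref P t * (H1.sref P s)⁻¹ * (H1.sref P t)⁻¹ = 1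
        rw [← hcomm]
        group
      exact H1.weyl_mk_eq_one_iff.1 this
    · exfalso
      apply ht
      have hr : H1.Reduced (H1.sref P) [t, s, t] := by
        unfold H1.Reduced
        have := H1.len_le (H1.sref P) [t, s, t]
        simp only [H1.wprod_cons, H1.wprod_nil, mul_one, List.length_cons, List.length_nil] at *
        omega
      refine H1.letters_mem_of_mem hB _ hr ?_ h5 t (by simp)
      simpa using h6
  · exfalso
    apply ht
    have hr : H1.Reduced (H1.sref P) [s, t] := by
      unfold H1.Reduced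
      simpa using hlen
    refine H1.letters_mem_of_mem hB _ hr ?_ h5 t (by simp)
    simpa using h6

/-- Simplicity criterion for groups with a (B,N)-pair: if the distinguished generators admit no
splitting into two non-empty mutually commuting parts, `B` is solvable, `G` is perfect and the intersection
of all conjugates of `B` is trivial, then `G` is simple. -/
theorem result {G : Type*} [Group G] [Nontrivial G]
    (P : Cfsg.BNPair G) (hirr : P.Irreducible) (hsolv : Group.IsSolvable P.B) (hperf : commutator G = ⊤)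
    (hcore : P.B.normalCore = ⊥) : IsSimpleGroup G := by
  refine ⟨fun H hH => ?_⟩
  by_cases hle : H ≤ P.B
  · left
    rw [eq_bot_iff, ← hcore]
    exact Subgroup.normal_le_normalCore.2 hle
  right
  have hB : P.B ≤ H ⊔ P.B := le_sup_right
  have hJ := H1.eq_parabolic_of_le hB
  have hne : (P.S ∩ (H ⊔ P.B : Subgroup G)).Nonempty := by
    rw [Set.nonempty_iff_ne_empty]
    intro h
    rw [h] at hJ
    apply hle
    have : P.parabolic ∅ = P.B := by simp [BNPair.parabolic]
    rw [← this, ← hJ]
    exact le_sup_left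
  have htop : H ⊔ P.B = ⊤ := by
    by_contra hnt
    have hne' : (P.S \ (P.S ∩ (H ⊔ P.B : Subgroup G))).Nonempty := by
      rw [Set.nonempty_iff_ne_empty, Ne, Set.sdiff_eq_empty]
      intro h
      apply hnt
      rw [hJ, ← H1.parabolic_univ (P := P)]
      congr 1
      exact Set.Subset.antisymm Set.inter_subset_left h
    obtain ⟨s, hs, t, ht, hst⟩ := hirr _ Set.inter_subset_left hne hne'
    exact hst (commute_of_normal P H ⟨s, hs.1⟩ ⟨t, ht.1⟩ hs.2 (fun h => ht.2 ⟨ht.1, h⟩))
  have hsurj : Function.Surjective ((QuotientGroup.mk' H).comp P.B.subtype) := by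
    intro x
    induction x using QuotientGroup.induction_on with
    | H g =>
      have hg : g ∈ H ⊔ P.B := by rw [htop]; trivial
      obtain ⟨h, hh, b, hb, rfl⟩ := Subgroup.mem_sup_of_normal_left.1 hg
      refine ⟨⟨b, hb⟩, ?_⟩
      have : ((h : G) : G ⧸ H) = 1 := (QuotientGroup.eq_one_iff h).2 hh
      simp [this]
  haveI : Group.IsSolvable (G ⧸ H) := Group.isSolvable_of_surjective hsurj
  by_contra hne
  haveI : Nontrivial (G ⧸ H) := by
    rw [← not_subsingleton_iff_nontrivial]
    intro hsub
    apply hne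
    rw [eq_top_iff]
    intro g _
    exact (QuotientGroup.eq_one_iff g).1 (Subsingleton.elim _ _)
  have h1 := Group.IsSolvable.commutator_lt_top_of_nontrivial (G ⧸ H)
  have h2 : commutator (G ⧸ H) = ⊤ := by
    have h3 := Subgroup.map_commutator (⊤ : Subgroup G) ⊤ (QuotientGroup.mk' H)
    have h4 : (⊤ : Subgroup G).map (QuotientGroup.mk' H) = ⊤ :=
      Subgroup.map_top_of_surjective _ (QuotientGroup.mk'_surjective H)
    rw [h4] at h3
    rw [commutator_def, ← h3, ← commutator_def, hperf, h4]
  exact h1.ne h2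

end Cfsg.Agent.S0319
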