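import Cfsg.Statements.S0321
import Cfsg.Agent.H1.BN

set_option autoImplicit false
open Cfsg

namespace Cfsg.Agent.S0321

/-- For `n ∈ N` not in `B`, the union `B ∪ B n B` is (the underlying set of) a subgroup exactly when `n` agrees
modulo `B ⊓ N` with one of the distinguished representatives; thus the distinguished involutions are
determined by `B` and `N`. -/
theorem result {G : Type*} [Group G] (P : Cfsg.BNPair G) {n : G}
    (hn : n ∈ P.N) (hnB : n ∉ P.B) :
    (∃ H : Subgroup G, (H : Set G) = (P.B : Set G) ∪ DoubleCoset.doubleCoset n (P.B : Set G) P.B) ↔ ∃ s ∈ P.S, s⁻¹ * n ∈ P.B := by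
  have e1 := H1.cell_mk_eq (P := P) ⟨n, hn⟩
  simp only at e1
  rw [← e1]
  constructor
  · rintro ⟨H, hH⟩
    have hB : P.B ≤ H := by
      intro b hb
      rw [← SetLike.mem_coe, hH]
      exact Or.inl hb
    have hnH : n ∈ H := by
      rw [← SetLike.mem_coe, hH]
      exact Or.inr (H1.self_mem_cell (P := P) ⟨n, hn⟩)
    obtain ⟨l, hl, hl'⟩ := (H1.invol_gen (P := P)).exists_reduced ((⟨n, hn⟩ : P.N) : H1.Weyl P)
    have hr : H1.Reduced (H1.sref P) l := by unfold H1.Reduced; rw [hl', hl]
    have h1 := H1.letters_mem_of_mem hB l hr (g := n)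
      (by rw [hl']; exact H1.self_mem_cell (P := P) ⟨n, hn⟩) hnH
    cases l with
    | nil =>
      exfalso
      rw [H1.wprod_nil, eq_comm, H1.weyl_mk_eq_one_iff] at hl'
      exact hnB hl'
    | cons s l =>
      have h2 := h1 s List.mem_cons_self
      rw [← SetLike.mem_coe, hH] at h2
      rcases h2 with h2 | h2
      · exact absurd h2 (H1.sref_not_mem s)
      · have h3 := H1.eq_of_mem_cell (H1.sref_mem_cell s) h2
        unfold H1.sref at h3
        rw [H1.weyl_mk_eq_iff] at h3
        exact ⟨s, s.2, h3⟩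
  · rintro ⟨s, hs, h⟩
    have h1 : ((⟨n, hn⟩ : P.N) : H1.Weyl P) = H1.sref P ⟨s, hs⟩ := by
      unfold H1.sref
      rw [eq_comm, H1.weyl_mk_eq_iff]
      exact h
    rw [h1]
    refine ⟨{ carrier := (P.B : Set G) ∪ H1.cell P (H1.sref P ⟨s, hs⟩)
              one_mem' := Or.inl P.B.one_mem
              mul_mem' := ?_
              inv_mem' := ?_ }, rfl⟩
    · rintro a b (ha | ha) (hb | hb)
      · exact Or.inl (P.B.mul_mem ha hb)
      · exact Or.inr (H1.mul_mem_cell_left ha hb)
      · exact Or.inr (H1.mul_mem_cell_right ha hb)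
      · rcases H1.mul_mem_cell_or _ ha hb with h2 | h2
        · rw [H1.sref_sq, H1.mem_cell_one] at h2
          exact Or.inl h2
        · exact Or.inr h2
    · rintro a (ha | ha)
      · exact Or.inl (P.B.inv_mem ha)
      · have := H1.inv_mem_cell ha
        rw [H1.sref_inv] at this
        exact Or.inr this

end Cfsg.Agent.S0321
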