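import Cfsg.Statements.S0322
import Cfsg.Agent.H1.BN

set_option autoImplicit false
open Cfsg

namespace Cfsg.Agent.S0322

/-- A group with a (B,N)-pair of rank one acts doubly transitively on the left cosets of `B`. -/
theorem result {G : Type*} [Group G] (P : Cfsg.BNPair G) (h : P.rank = 1) : MulAction.IsMultiplyPretransitive G (G ⧸ P.B) 2 := by
  obtain ⟨⟨s⟩, hfin⟩ : Nonempty P.S ∧ Subsingleton P.S := by
    have := Nat.card_eq_one_iff_unique.1 h
    exact ⟨this.2, this.1⟩
  have hcell : ∀ g : G, g ∉ P.B → g ∈ H1.cell P (H1.sref P s) := by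
    intro g hg
    obtain ⟨w, hw⟩ := H1.exists_mem_cell (P := P) g
    obtain ⟨l, rfl⟩ := (H1.invol_gen (P := P)).gen w
    have : H1.wprod (H1.sref P) l = 1 ∨ H1.wprod (H1.sref P) l = H1.sref P s := by
      clear hw
      induction l with
      | nil => left; rfl
      | cons t l ih =>
        rw [Subsingleton.elim t s, H1.wprod_cons]
        rcases ih with ih | ih
        · right; rw [ih, mul_one]
        · left; rw [ih, H1.sref_sq]
    rcases this with h1 | h1
    · rw [h1, H1.mem_cell_one] at hw
      exact absurd hw hg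
    · rwa [h1] at hw
  rw [MulAction.is_two_pretransitive_iff]
  intro a b c d hab hcd
  induction a using QuotientGroup.induction_on with | H a => ?_
  induction b using QuotientGroup.induction_on with | H b => ?_
  induction c using QuotientGroup.induction_on with | H c => ?_
  induction d using QuotientGroup.induction_on with | H d => ?_
  rw [Ne, QuotientGroup.eq] at hab hcd
  obtain ⟨b₁, hb₁, b₂, hb₂, h1⟩ := H1.cell_rel (hcell _ hab) (hcell _ hcd)
  refine ⟨c * b₁ * a⁻¹, ?_, ?_⟩
  · rw [MulAction.Quotient.smul_mk, QuotientGroup.eq]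
    simpa using P.B.inv_mem hb₁
  · rw [MulAction.Quotient.smul_mk, QuotientGroup.eq]
    have : (((c * b₁ * a⁻¹) • b)⁻¹ * d) = b₂ := by
      have e : d = c * (c⁻¹ * d) := by group
      rw [e, h1, smul_eq_mul]
      group
    rw [this]
    exact hb₂

end Cfsg.Agent.S0322
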