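import Cfsg.Statements.S0323


set_option autoImplicit false
open scoped Pointwise
open Cfsg

namespace Cfsg.Agent.S0323

/-- A doubly transitive action on a set with at least three points yields a (B,N)-pair of rank one:
`B` is the stabiliser of a point `x`, `N` the setwise stabiliser of a pair `{x, y}`. -/
theorem result {G Ω : Type*} [Group G] [MulAction G Ω]
    (h2 : MulAction.IsMultiplyPretransitive G Ω 2) {x y z : Ω} (hxy : x ≠ y) (hyz : y ≠ z) (hxz : x ≠ z) :
    ∃ P : Cfsg.BNPair G, P.B = MulAction.stabilizer G x ∧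
      P.N = MulAction.stabilizer G ({x, y} : Set Ω) ∧ P.rank = 1 := by
  classical
  have h2' : ∀ {a b c d : Ω}, a ≠ b → c ≠ d → ∃ g : G, g • a = c ∧ g • b = d :=
    MulAction.is_two_pretransitive_iff.1 h2
  obtain ⟨s, hsx, hsy⟩ := h2' hxy hxy.symm
  have hmemN : ∀ g : G, g ∈ MulAction.stabilizer G ({x, y} : Set Ω) ↔
      (g • x = x ∧ g • y = y) ∨ (g • x = y ∧ g • y = x) := by
    intro g
    rw [MulAction.mem_stabilizer_iff, Set.smul_set_insert, Set.smul_set_singleton, Set.pair_eq_pair_iff]
  have hsN : s ∈ MulAction.stabilizer G ({x, y} : Set Ω) := (hmemN s).2 (Or.inr ⟨hsx, hsy⟩)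
  have hdc : ∀ g n : G, g • x ≠ x → n • x ≠ x → g ∈ DoubleCoset.doubleCoset n
      (MulAction.stabilizer G x : Set G) (MulAction.stabilizer G x) := by
    intro g n hg hn
    obtain ⟨b, hb1, hb2⟩ := h2' (Ne.symm hn) (Ne.symm hg)
    rw [DoubleCoset.mem_doubleCoset]
    refine ⟨b, hb1, (b * n)⁻¹ * g, ?_, by group⟩
    rw [SetLike.mem_coe, MulAction.mem_stabilizer_iff, mul_smul, inv_smul_eq_iff, mul_smul, hb2]
  have hdc1 : ∀ g n : G, g • x = x → n • x = x → g ∈ DoubleCoset.doubleCoset n
      (MulAction.stabilizer G x : Set G) (MulAction.stabilizer G x) := by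
    intro g n hg hn
    rw [DoubleCoset.mem_doubleCoset]
    refine ⟨1, Subgroup.one_mem _, n⁻¹ * g, ?_, by group⟩
    rw [SetLike.mem_coe, MulAction.mem_stabilizer_iff, mul_smul, inv_smul_eq_iff, hg, hn]
  refine ⟨{ B := MulAction.stabilizer G x
            N := MulAction.stabilizer G ({x, y} : Set Ω)
            S := {s}
            sup_eq_top := ?_
            conj_mem := ?_
            subset := ?_
            sq_mem := ?_
            inj := ?_
            closure_sup := ?_
            mul_mem_union := ?_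
            conj_ne := ?_ }, rfl, rfl, by simp [BNPair.rank]⟩
  · rw [eq_top_iff]
    intro g _
    by_cases hg : g • x = x
    · exact Subgroup.mem_sup_left hg
    · obtain ⟨b, hb, b', hb', rfl⟩ := DoubleCoset.mem_doubleCoset.1 (hdc g s hg (by rw [hsx]; exact hxy.symm))
      exact Subgroup.mul_mem _ (Subgroup.mul_mem _ (Subgroup.mem_sup_left hb) (Subgroup.mem_sup_right hsN))
        (Subgroup.mem_sup_left hb')
  · intro n hn t ht
    have ht1 : t • x = x := ht.1
    have ht2 : t • y = y := by
      rcases (hmemN t).1 ht.2 with h | h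
      · exact h.2
      · exact absurd (ht1.symm.trans h.1) hxy
    rw [MulAction.mem_stabilizer_iff, mul_smul, mul_smul, smul_eq_iff_eq_inv_smul]
    rcases (hmemN n⁻¹).1 (Subgroup.inv_mem _ hn) with h | h
    · rw [h.1, ht1]
    · rw [h.1, ht2]
  · rintro _ rfl
    exact hsN
  · rintro _ rfl
    rw [MulAction.mem_stabilizer_iff, mul_smul, hsx, hsy]
  · rintro _ rfl _ rfl _
    rfl
  · apply le_antisymm
    · refine sup_le ?_ inf_le_right
      rw [Subgroup.closure_le, Set.singleton_subset_iff]
      exact hsN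
    · intro n hn
      rcases (hmemN n).1 hn with h | h
      · exact Subgroup.mem_sup_right ⟨h.1, hn⟩
      · have e : n = s * (s⁻¹ * n) := by group
        rw [e]
        refine Subgroup.mul_mem _ (Subgroup.mem_sup_left (Subgroup.subset_closure rfl))
          (Subgroup.mem_sup_right ⟨?_, Subgroup.mul_mem _ (Subgroup.inv_mem _ hsN) hn⟩)
        show (s⁻¹ * n) • x = x
        rw [mul_smul, inv_smul_eq_iff, h.1, hsx]
  · intro s' hs' n hn b hb
    rw [Set.mem_singleton_iff.1 hs']
    have hb' : b • x = x := hb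
    rcases (hmemN n).1 hn with h | h
    · left
      apply hdc
      · rw [mul_smul, mul_smul, h.1, hb', hsx]; exact hxy.symm
      · rw [mul_smul, h.1, hsx]; exact hxy.symm
    · by_cases hg : (s * b * n) • x = x
      · left
        apply hdc1 _ _ hg
        rw [mul_smul, h.1, hsy]
      · right
        apply hdc _ _ hg
        rw [h.1]; exact hxy.symm
  · intro s' hs' h
    rw [Set.mem_singleton_iff.1 hs'] at h
    obtain ⟨b, hb1, hb2⟩ := h2' hxy hxz
    have : s * b * s ∈ (MulAction.stabilizer G x : Set G) := by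
      rw [← h]
      exact ⟨b, hb1, rfl⟩
    rw [SetLike.mem_coe, MulAction.mem_stabilizer_iff, mul_smul, mul_smul, hsx, hb2] at this
    apply hyz
    rw [← hsy] at this
    exact (MulAction.injective s this).symm

end Cfsg.Agent.S0323
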