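import Cfsg.Statements.S0328
import Cfsg.Agent.H2.SzStruct

set_option autoImplicit false
open Cfsg

namespace Cfsg.Agent.S0328

/-- The stabiliser in the Suzuki group of the two ovoid points spanned by `(1,0,0,0)` and `(0,0,0,1)` is
isomorphic to the multiplicative group of the field (cyclic of order `q - 1`). -/
theorem result {F : Type*} [Field F] [Fintype F] {m : ℕ} (hm : 1 ≤ m)
    (hF : Fintype.card F = 2 ^ (2 * m + 1)) :
    Nonempty (↥(MulAction.stabilizer (Cfsg.Sz F m) (Cfsg.suzukiPointInfinity F) ⊓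
        MulAction.stabilizer (Cfsg.Sz F m) (Cfsg.suzukiPointZero F)) ≃* Fˣ) := by
  haveI : H2.SzField F m := ⟨hm, hF⟩
  have h : (H2.Dhom F m).range = MulAction.stabilizer (Cfsg.Sz F m) (Cfsg.suzukiPointInfinity F) ⊓
        MulAction.stabilizer (Cfsg.Sz F m) (Cfsg.suzukiPointZero F) := by
    ext g
    simp only [MonoidHom.mem_range, Subgroup.mem_inf, MulAction.mem_stabilizer_iff, ← H2.pt_zero m]
    constructor
    · rintro ⟨t, rfl⟩
      refine ⟨H2.DSL_smul_inf m t, ?_⟩
      have := H2.DSL_smul_pt m t 0 0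
      rw [mul_zero, mul_zero] at this
      exact this
    · rintro ⟨h1, h2⟩
      obtain ⟨t, rfl⟩ := H2.eq_D_of_fix m g (Subtype.ext h1) (Subtype.ext h2)
      exact ⟨t, rfl⟩
  exact ⟨(MulEquiv.subgroupCongr h.symm).trans
    (MonoidHom.ofInjective (f := H2.Dhom F m) (H2.D_injective m)).symm⟩

end Cfsg.Agent.S0328
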