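import Cfsg.Statements.S0337
import Cfsg.Agent.H5.CITMain
import Cfsg.Agent.H5.PHFT

set_option autoImplicit false
open Cfsg

namespace Cfsg.Agent.S0337

/-- Classification of simple CN-groups, order-level form: a finite non-abelian simple group in which every
non-identity element has nilpotent centraliser is isomorphic to `PSL₂(F)` with `|F| = 9`, `|F|` a power of `2`, or
`|F|` a prime of the form `2^k ± 1`; or to `PSL₃` over the field with `4` elements; or is simple of Suzuki order. -/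
theorem result {G : Type*} [Group G] [Finite G] [IsSimpleGroup G]
    (hG : ∃ a b : G, a * b ≠ b * a) (hCN : Cfsg.IsCNGroup G) :
    (∃ (F : Type) (_ : Field F) (_ : Fintype F),
        (Fintype.card F = 9 ∨ (∃ n : ℕ, Fintype.card F = 2 ^ n) ∨
          ((Fintype.card F).Prime ∧ ∃ k : ℕ, Fintype.card F = 2 ^ k + 1 ∨ Fintype.card F + 1 = 2 ^ k)) ∧
        Nonempty (G ≃* Matrix.ProjectiveSpecialLinearGroup (Fin 2) F)) ∨
    (∃ (F : Type) (_ : Field F) (_ : Fintype F), Fintype.card F = 4 ∧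
        Nonempty (G ≃* Matrix.ProjectiveSpecialLinearGroup (Fin 3) F)) ∨
    Cfsg.IsSuzuki G := by
  have hs := H5.noSolv_of_simple hG
  have he := H5.even_of_noSolv hs
  by_cases hC : H5.IsCIT G
  · exact H5.cit_simple hG hC he
  obtain ⟨H, h1, h2⟩ := H5.ph_of_cn hCN hC
  obtain ⟨a⟩ : Nonempty (Sylow 2 G) := inferInstance
  obtain ⟨⟨-, -, u, hu, -⟩, ⟨F, _, _, h3, h4⟩ | ⟨h3, -⟩⟩ :=
    h1.main he hs (H5.oddCore_of_noSolv hs) a
  · refine .inl ⟨F, _, _, .inr (.inl (H5.card_field_two_pow F (h3 ▸ even_iff_two_dvd.2 ?_))), h4⟩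
    exact H5.orderOf_eq_two_iff'.2 hu.2 ▸ (H a).orderOf_dvd_natCard (h1.le a hu.1)
  · obtain ⟨y, h4, h5⟩ := h2 a
    exact absurd (H5.twoEl_of_mem h3 h4) h5

end Cfsg.Agent.S0337
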