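import Cfsg.Statements.S0338
import Cfsg.Agent.H3.Zass2

set_option autoImplicit false
open Cfsg

namespace Cfsg.Agent.S0338

/-- A Zassenhaus group of odd degree is a simple group. -/
theorem result {G Ω : Type*} [Group G] [MulAction G Ω] [Fintype Ω]
    (hZ : Cfsg.IsZassenhausGroup G Ω) (hodd : Odd (Fintype.card Ω)) : IsSimpleGroup G := by
  have := Cfsg.Agent.H3.finite_of_isZassenhaus hZ
  obtain ⟨-, -, a, b, hab, -⟩ := hZ.2.2.2.1
  refine Cfsg.Agent.H3.isSimpleGroup_of_isZassenhaus_of_even hZ (a := a) ?_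
  have h := (Cfsg.Agent.H3.Zs.of_isZassenhaus hZ).card_root hab
  rw [← Nat.card_eq_fintype_card, ← h] at hodd
  exact Nat.not_odd_iff_even.mp (fun h' => (Nat.not_even_iff_odd.mpr hodd) h'.add_one)

end Cfsg.Agent.S0338
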