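import Cfsg.Statements.S0344
import Cfsg.Agent.H3.ZassSimple

set_option autoImplicit false
open Cfsg

namespace Cfsg.Agent.S0344

/-- A finite simple Zassenhaus group with a two-point stabiliser of even order is isomorphic to `PSL₂(F)` for a finite
field `F` with more than three elements. -/
theorem result {G Ω : Type*} [Group G] [Finite G] [MulAction G Ω] [Finite Ω]
    (hZ : Cfsg.IsZassenhausGroup G Ω) [IsSimpleGroup G]
    {a b : Ω} (hab : a ≠ b) (heven : Even (Nat.card ↥(MulAction.stabilizer G a ⊓ MulAction.stabilizer G b))) :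
    ∃ (F : Type) (_ : Field F) (_ : Fintype F), 3 < Fintype.card F ∧ Nonempty (G ≃* Matrix.ProjectiveSpecialLinearGroup (Fin 2) F) := by
  have Z := H3.Zs.of_isZassenhaus hZ
  have hK := H3.root_ne_bot_of_isZassenhaus hZ a
  obtain ⟨h1, h2, h3⟩ := Z.two_mul_card_of_even hab hK heven
  obtain ⟨w, hw, hw1, hw2⟩ := Z.exists_involution_swap hab hK
  obtain ⟨h4, h5⟩ := H3.Zs.identify.{0} Z hab hK h2 hw1 hw2 (h3 w hw hw1 hw2) h1.ge
  obtain ⟨F, _, _, hF⟩ := H3.exists_field_of_isPrimePow h4
  have hF' : Nat.card F = Nat.card (Z.root a) := by rw [Nat.card_eq_fintype_card, hF]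
  refine ⟨F, inferInstance, inferInstance, ?_, (h5 F hF').1 (Or.inl (hF' ▸ h1))⟩
  obtain ⟨k, hk⟩ := heven
  have : 0 < Nat.card ↥(MulAction.stabilizer G a ⊓ MulAction.stabilizer G b) := Nat.card_pos
  omega

end Cfsg.Agent.S0344
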