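import Cfsg.Statements.S0345
import Cfsg.Agent.H3.ZassSimple

set_option autoImplicit false
open Cfsg

namespace Cfsg.Agent.S0345

/-- In a finite simple Zassenhaus group the stabiliser `H` of two points `a ≠ b` is cyclic, and some involution
interchanging `a` and `b` inverts every element of `H`. -/
theorem result {G Ω : Type*} [Group G] [Finite G] [MulAction G Ω] [Finite Ω]
    (hZ : Cfsg.IsZassenhausGroup G Ω) [IsSimpleGroup G]
    {a b : Ω} (hab : a ≠ b) :
    IsCyclic ↥(MulAction.stabilizer G a ⊓ MulAction.stabilizer G b) ∧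
      ∃ v : G, orderOf v = 2 ∧ v • a = b ∧ v • b = a ∧ ∀ h ∈ MulAction.stabilizer G a ⊓ MulAction.stabilizer G b, v * h * v⁻¹ = h⁻¹ := by
  have Z := H3.Zs.of_isZassenhaus hZ
  have hK := H3.root_ne_bot_of_isZassenhaus hZ a
  obtain ⟨w, hw, hw1, hw2⟩ := Z.exists_involution_swap hab hK
  refine ⟨Z.isCyclic_stab_of_simple hab hK, w, orderOf_eq_prime (by rw [sq, hw]) ?_, hw1, hw2,
    Z.inverts_of_simple hab hK hw hw1 hw2⟩
  rintro rfl
  exact hab (by simpa using hw1)

end Cfsg.Agent.S0345
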