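import Cfsg.Statements.S0346
import Cfsg.Agent.H9.ZassClass

set_option autoImplicit false
open Cfsg

namespace Cfsg.Agent.S0346

/-- The number of points of a finite simple Zassenhaus group is `p^k + 1` for some prime power `p^k` (the regular normal
subgroup of a point stabiliser is a `p`-group). -/
theorem result {G Ω : Type*} [Group G] [Finite G] [MulAction G Ω] [Fintype Ω]
    (hZ : Cfsg.IsZassenhausGroup G Ω) [IsSimpleGroup G] :
    IsPrimePow (Fintype.card Ω - 1) := by
  obtain ⟨-, -, a, b, hab, -, -⟩ := hZ.2.2.2.1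
  have h1 := (H3.Zs.of_isZassenhaus hZ).card_root hab
  rw [← Nat.card_eq_fintype_card, ← h1, Nat.add_sub_cancel]
  rcases H9.psl_or_two_of_isZassenhaus hZ a with ⟨F, _, _, hF, -⟩ | ⟨h2, -⟩
  · rw [← hF]
    exact FiniteField.isPrimePow_card F
  · obtain ⟨n, hn⟩ := h2.exists_card_eq
    have h3 := (Subgroup.one_lt_card_iff_ne_bot _).mpr (H3.root_ne_bot_of_isZassenhaus hZ a)
    rw [hn] at h3 ⊢
    refine Nat.prime_two.prime.isPrimePow.pow ?_
    rintro rfl
    simp at h3

end Cfsg.Agent.S0346
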