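import Cfsg.Statements.S0349
import Cfsg.Agent.H2.PfA2
import Cfsg.Agent.S0322

set_option autoImplicit false
open Cfsg

namespace Cfsg.Agent.S0349

/-- Let a finite simple group have a (B,N)-pair of rank one which is strongly split (`B = U (B ⊓ N)` with `U` nilpotent,
normal in `B` and meeting `N` trivially), with `[G : B]` and `|B ⊓ N|` odd. Then the group is isomorphic to `PSL₂(F)` with
`|F|` a power of `2`, or is simple of Suzuki order, or is isomorphic to `PSU₃` realised over a field with `q²` elements,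
`q = 2^n`, `n ≥ 2`. -/
theorem result {G : Type*} [Group G] [Finite G] [IsSimpleGroup G]
    (P : Cfsg.BNPair G) (hrank : P.rank = 1) (U : Subgroup G) (hUB : U ≤ P.B)
    (hUn : (U.subgroupOf P.B).Normal) (hUnil : Group.IsNilpotent U) (hsplit : U ⊔ (P.B ⊓ P.N) = P.B)
    (hdisj : U ⊓ P.N = ⊥) (hind : Odd P.B.index) (hH : Odd (Nat.card ↥(P.B ⊓ P.N))) :
    (∃ (F : Type) (_ : Field F) (_ : Fintype F), (∃ n : ℕ, Fintype.card F = 2 ^ n) ∧ Nonempty (G ≃* Matrix.ProjectiveSpecialLinearGroup (Fin 2) F)) ∨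
      Cfsg.IsSuzuki G ∨
      (∃ (F : Type) (_ : Field F) (_ : Fintype F) (n : ℕ), 2 ≤ n ∧ Fintype.card F = (2 ^ n) ^ 2 ∧
        Nonempty (G ≃* Cfsg.PSU 3 F (2 ^ n))) := by
  open H2.Pf H7 Subgroup MulAction in
  have : Fact (Nat.Prime 2) := ⟨Nat.prime_two⟩
  obtain ⟨⟨n, hn⟩, -⟩ : Nonempty P.S ∧ Subsingleton P.S := (Nat.card_eq_one_iff_unique.1 hrank).symm
  have hN := P.subset hn
  have st : ∀ g : G, g • ((1 : G) : G ⧸ P.B) = (1 : G) ↔ g ∈ P.B := fun g => by
    rw [Quotient.smul_mk, QuotientGroup.eq]; simp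
  have nB : n ∉ P.B := fun h => P.conj_ne n hn (Set.eq_of_subset_of_subset (by
    rintro _ ⟨b, hb, rfl⟩
    exact mul_mem (mul_mem h hb) h) fun b hb =>
      ⟨n⁻¹ * b * n⁻¹, mul_mem (mul_mem (inv_mem h) hb) (inv_mem h), by simp [mul_assoc]⟩)
  have hab : ((1 : G) : G ⧸ P.B) ≠ (n : G) := fun e => nB (by simpa using QuotientGroup.eq.1 e)
  have BU : P.B ≤ N[U] := le_norm_of_conj fun g hg x hx => hUn.conj_mem ⟨x, hUB hx⟩ hx ⟨g, hg⟩
  have hd := nil_core_dprod {2} hUnil
  have tr : ∀ p : G ⧸ P.B, p ≠ (1 : G) → ∃ x ∈ U, x • ((n : G) : G ⧸ P.B) = p := fun p hp => by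
    obtain ⟨g, h1, h2⟩ := is_two_pretransitive_iff.1 (S0322.result P hrank) hab hp.symm
    obtain ⟨x, hx, h, hh, rfl⟩ := (mem_sup_of_norm (inf_le_left.trans BU)).1 (hsplit.ge ((st g).1 h1))
    refine ⟨x, hx, ?_⟩
    rw [← h2, mul_smul, smul_left_cancel_iff, Quotient.smul_mk, QuotientGroup.eq]
    simpa [mul_assoc] using P.conj_mem n⁻¹ (inv_mem hN) h hh
  have ho : Odd (Nat.card (O[{2}ᶜ] U)) := Nat.not_even_iff_odd.1 fun h =>
    isPi_core {2}ᶜ U 2 Nat.prime_two h.two_dvd rfl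
  let c : P0 G (G ⧸ P.B) :=
    { a := (1 : G), b := (n : G), hab := hab, S := O[{2}] U, O := O[{2}ᶜ] U
      fixS := fun x hx => (st x).2 (hUB (hd.le_left hx))
      fixO := fun x hx => (st x).2 (hUB (hd.le_right hx))
      norm := fun g hg x hx => conj_mem_of_norm (le_norm_core _ BU ((st g).1 hg)) hx
      two := isPGroup_core U
      odd := ho
      comm := fun x hx y hy => hd.cent hy x hx
      trans := fun p hp => by
        obtain ⟨x, hx, e⟩ := tr p hp
        obtain ⟨y, hy, z, hz, rfl⟩ := hd.mem_iff.1 hx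
        exact ⟨y, hy, z, hz, e⟩
      to_b := ⟨n, by simp⟩
      index := by
        have h1 := (O[{2}] U).card_mul_index
        have h2 := card_sup_of_inf_eq_bot (inf_le_left.trans BU : P.B ⊓ P.N ≤ _)
          (eq_bot_iff.2 (hdisj ▸ inf_le_inf_left U inf_le_right))
        rw [← P.B.card_mul_index, ← hsplit, h2, hsplit, hd.card, mul_assoc, mul_assoc] at h1
        rw [Nat.eq_of_mul_eq_mul_left Nat.card_pos h1]
        exact ho.mul (hH.mul hind)
      faith := fun g hg => by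
        rcases (toPermHom G (G ⧸ P.B)).normal_ker.eq_bot_or_eq_top with e | e
        · exact mem_bot.1 (e ▸ Equiv.ext hg)
        · exact (hab ((Equiv.congr_fun (MonoidHom.mem_ker.1 (e.ge (mem_top n))) _).symm.trans
            (congrArg QuotientGroup.mk (mul_one n)))).elim }
  obtain ⟨t, ht, ta⟩ := c.exists_swap c.hab
  obtain ⟨z, hz, z', hz', z1, z1', hzz⟩ := c.exists_two
  let c' : Pre G (G ⧸ P.B) :=
    { a := c.a, b := c.b, hab := hab, Q := U
      fix := fun x hx => (st x).2 (hUB hx)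
      norm := fun g hg x hx => conj_mem_of_norm (BU ((st g).1 hg)) hx
      trans := tr
      inv := ⟨z, hd.le_left hz.1, z1, hz.2.1⟩
      odd := fun d h1 h2 => by
        by_contra h
        obtain ⟨k, u1, u2⟩ := exists_half h
        exact u1 (mem_bot.1 ((c.T_eq_bot c.two_lt).le ⟨c.inv_mem_S u2 ((stabilizer G c.a).pow_mem h1 k),
          (stabilizer G c.b).pow_mem h2 k⟩))
      t := t, t_sq := ht.sq, ta := ta, tb := by rw [← ta, ht.smul_smul] }
  obtain ⟨c'', hb⟩ := c'.exists_ctx hUnil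
    ⟨z, hd.le_left hz.1, z', hd.le_left hz'.1, hz.2.1, z1, hz'.2.1, z1', hzz⟩
  exact Ctx.suzuki hb

end Cfsg.Agent.S0349
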