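import Cfsg.Statements.S3354
import Cfsg.Agent.H7.ON.Main

set_option autoImplicit false
open Cfsg

namespace Cfsg.Agent.S3354

/-- In a finite doubly transitive permutation group of degree at least 3, a one-point stabilizer is either a local subgroup (the normalizer of a non-trivial subgroup of prime-power order) or almost simple: it has a non-abelian simple normal subgroup with trivial centralizer (so that it embeds between that simple group and its automorphism group). -/
theorem result {G Ω : Type*} [Group G] [Finite G]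
    [MulAction G Ω] [FaithfulSMul G Ω] [Finite Ω] (hΩ : 3 ≤ Nat.card Ω)
    (h2 : MulAction.IsMultiplyPretransitive G Ω 2) (a : Ω) :
    Cfsg.IsLocalSubgroup (MulAction.stabilizer G a) ∨
    ∃ N : Subgroup (MulAction.stabilizer G a), N.Normal ∧ IsSimpleGroup N ∧ ¬ IsMulCommutative N ∧
      Subgroup.centralizer (N : Set (MulAction.stabilizer G a)) = ⊥ := by
  have := MulAction.isPreprimitive_of_is_two_pretransitive h2
  by_cases hF : H7.fittingIn (MulAction.stabilizer G a) = ⊥
  swap
  · rw [H7.fittingIn_eq_bot_iff_pCoreIn] at hF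
    push Not at hF
    obtain ⟨p, hp, h⟩ := hF
    exact Or.inl ⟨p, _, hp, H7.pCoreIn_isPGroup _ _, h,
      ((H7.pCoreIn_normalIn _ _).normalizer_eq_stabilizer h).symm⟩
  have hne : MulAction.stabilizer G a ≠ ⊥ := fun e => by
    have := Fintype.ofFinite Ω
    obtain ⟨b, c, hb, hc, hbc⟩ : ∃ b c : Ω, a ≠ b ∧ a ≠ c ∧ b ≠ c := by
      obtain ⟨x, y, z, h1, h3, h4⟩ := Fintype.two_lt_card_iff.1 (Nat.card_eq_fintype_card (α := Ω) ▸ hΩ)
      by_cases e1 : a = x
      · exact ⟨y, z, e1 ▸ h1, e1 ▸ h3, h4⟩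
      by_cases e2 : a = y
      exacts [⟨x, z, e1, e2 ▸ h4, h3⟩, ⟨x, y, e1, e2, h1⟩]
    obtain ⟨g, g1, g2⟩ := MulAction.is_two_pretransitive_iff.1 h2 hb hc
    obtain rfl : g = 1 := Subgroup.mem_bot.1 (e ▸ g1)
    exact hbc (by simpa using g2)
  obtain ⟨L, hL⟩ := H7.exists_compIn_of_fittingIn_eq_bot hne hF
  have e : H7.layerIn (MulAction.stabilizer G a) = L := le_antisymm
    (H7.layerIn_le_iff.2 fun _ h => (H7.ON.comp_unique h2 a hF h hL).le) hL.le_layerIn
  have hs := hL.isSimpleGroup hF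
  have iso := Subgroup.subgroupOfEquivOfLe hL.le
  refine Or.inr ⟨L.subgroupOf _, (e ▸ H7.layerIn_normalIn _).subgroupOf_normal, iso.isSimpleGroup,
    fun h => hL.not_isMulCommutative ⟨⟨fun x y => iso.symm.injective (by
      rw [map_mul, map_mul, h.1.1])⟩⟩, eq_bot_iff.2 fun g hg => ?_⟩
  have h := H7.centralizer_fstarIn_inf_le (MulAction.stabilizer G a)
  rw [H7.fstarIn_eq, hF, e, sup_bot_eq] at h
  exact Subtype.ext (Subgroup.mem_bot.1 (h ⟨fun x hx =>
    congrArg Subtype.val (hg ⟨x, hL.le hx⟩ hx), g.2⟩))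

end Cfsg.Agent.S3354
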