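import Cfsg.Statements.S3356
import Cfsg.Agent.H3.Frobenius
import Cfsg.Agent.H3.GroupUtil
import Cfsg.Agent.H3.Derangement2

set_option autoImplicit false
open Cfsg

namespace Cfsg.Agent.S3356

/-- Let G be a finite 3/2-transitive permutation group: G acts faithfully and transitively on a finite set, the point stabilizers are non-trivial, and for each point a all orbits of G_a on the remaining points have the same size. Suppose G has a regular normal subgroup N and G is not a Frobenius group (some two-point stabilizer is non-trivial). Then N is an elementary abelian p-group for some prime p, and every non-trivial normal subgroup of G contains N (so N is the unique minimal normal subgroup). -/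
theorem result {G Ω : Type*} [Group G] [Finite G]
    [MulAction G Ω] [FaithfulSMul G Ω] [Finite Ω] (htrans : MulAction.IsPretransitive G Ω)
    (hne : ∀ a : Ω, MulAction.stabilizer G a ≠ ⊥)
    (hhalf : ∀ a b c : Ω, b ≠ a → c ≠ a →
      Nat.card (MulAction.orbit (MulAction.stabilizer G a) b) = Nat.card (MulAction.orbit (MulAction.stabilizer G a) c))
    (N : Subgroup G) [hN : N.Normal] (hNt : MulAction.IsPretransitive N Ω) (hNr : ∀ a : Ω, MulAction.stabilizer N a = ⊥)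
    (hnotF : ∃ a b : Ω, a ≠ b ∧ MulAction.stabilizer G a ⊓ MulAction.stabilizer G b ≠ ⊥) :
    (∃ p : ℕ, p.Prime ∧ IsMulCommutative N ∧ ∀ x ∈ N, x ^ p = 1) ∧
    (∀ M : Subgroup G, M.Normal → M ≠ ⊥ → N ≤ M) := by
  classical
  obtain ⟨a₀, b₀, hab₀, hF⟩ := hnotF
  -- all non-trivial suborbits have the same length `m`
  have hidx : ∀ a b : Ω, Nat.card (MulAction.orbit (MulAction.stabilizer G a) b)
      = (MulAction.stabilizer G b).relIndex (MulAction.stabilizer G a) := by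
    intro a b
    rw [Nat.card_coe_set_eq, ← MulAction.index_stabilizer]
    rfl
  have hcard : ∀ a b : Ω, Nat.card (MulAction.stabilizer G a ⊓ MulAction.stabilizer G b : Subgroup G)
      * (MulAction.stabilizer G b).relIndex (MulAction.stabilizer G a)
      = Nat.card (MulAction.stabilizer G a) := by
    intro a b
    rw [← ((MulAction.stabilizer G b).subgroupOf (MulAction.stabilizer G a)).card_mul_index,
      inf_comm, ← Subgroup.subgroupOf_map_subtype,
      Subgroup.card_map_of_injective (Subgroup.subtype_injective _)]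
    rfl
  set a := a₀
  set A := MulAction.stabilizer G a with hA
  set m := (MulAction.stabilizer G b₀).relIndex A with hm
  have hm' : ∀ b, b ≠ a → (MulAction.stabilizer G b).relIndex A = m := by
    intro b hb
    rw [hm, hA, ← hidx, ← hidx]
    exact hhalf a b b₀ hb hab₀.symm
  -- centralizers in `A` of elements of `N`
  have hcent : ∀ x ∈ N, ∀ h ∈ A, h ∈ MulAction.stabilizer G (x • a) ↔ h * x * h⁻¹ = x :=
    fun x hx h hh => H3.conj_eq_of_regular (hNr a) hh hx hx
  have hxa : ∀ x ∈ N, x ≠ 1 → x • a ≠ a := fun x hx hx1 h =>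
    hx1 (H3.eq_one_of_regular (hNr a) hx h)
  have hcardD : ∀ b, b ≠ a → Nat.card (A ⊓ MulAction.stabilizer G b : Subgroup G)
      = Nat.card (A ⊓ MulAction.stabilizer G b₀ : Subgroup G) := by
    intro b hb
    have h1 := hcard a b
    have h2 := hcard a b₀
    rw [hm' b hb] at h1
    have h3 : m ≠ 0 := Subgroup.FiniteIndex.index_ne_zero
    exact Nat.eq_of_mul_eq_mul_right (Nat.pos_of_ne_zero h3) (h1.trans h2.symm)
  have hinv : ∀ B : Set Ω, a ∈ B → (∀ h ∈ A, ∀ b ∈ B, h • b ∈ B) → m ∣ B.ncard - 1 := by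
    intro B ha hB
    rw [← Set.ncard_sdiff_singleton_of_mem ha]
    refine H3.dvd_ncard_of_invariant (G := A) _ (fun g b hb => ⟨hB g g.2 b hb.1, fun h => hb.2 ?_⟩)
      (fun b hb => (hm' b hb.2).symm.dvd)
    have h2 : g • a = a := g.2
    exact (smul_left_cancel_iff g).mp ((Set.mem_singleton_iff.mp h).trans h2.symm)
  -- key step: for an `A`-invariant subgroup `W` of `N`, multiplying by `W` does not change
  -- centralizers outside `W`, nor does conjugation by `W`
  have key : ∀ (W : Subgroup G), W ≤ N → (∀ h ∈ A, ∀ w ∈ W, h * w * h⁻¹ ∈ W) →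
      ∀ (r : G → G → G), (∀ w ∈ W, ∀ w' ∈ W, ∀ y, r w (r w' y) = r (w * w') y) →
      (∀ y, r 1 y = y) → (∀ h w y, h * r w y * h⁻¹ = r (h * w * h⁻¹) (h * y * h⁻¹)) →
      ∀ x ∈ N, (∀ w ∈ W, r w x ∈ N ∧ r w x ≠ 1) → ∀ w ∈ W, ∀ h ∈ A, h * x * h⁻¹ = x →
      h * r w x * h⁻¹ = r w x := by
    intro W hWN hWA r hr1 hr2 hr3 x hx hrx
    have hcop : Nat.Coprime (Nat.card W) m := by
      refine H3.coprime_of_dvd_sub_one Nat.card_pos ?_
      have h1 := hinv (MulAction.orbit W a) (MulAction.mem_orbit_self a) (by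
        rintro h hh _ ⟨w, rfl⟩
        exact ⟨⟨_, hWA h hh w w.2⟩, ((H3.conj_eq_of_regular (hNr a) hh (hWN w.2)
          (hWN (hWA h hh w w.2))).mpr rfl).symm⟩)
      have h2 : MulAction.stabilizer W a = ⊥ := by
        rw [Subgroup.eq_bot_iff_forall]
        intro w hw
        exact Subtype.ext (H3.eq_one_of_regular (hNr a) (hWN w.2) hw)
      rwa [← MulAction.index_stabilizer, h2, Subgroup.index_bot] at h1
    -- the `W`-orbit of `x` and its stabilizer in `A`
    let O : Set G := {y | ∃ w ∈ W, y = r w x}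
    have hO1 : ∀ w ∈ W, ∀ y ∈ O, r w y ∈ O := by
      rintro w hw _ ⟨w', hw', rfl⟩
      exact ⟨w * w', W.mul_mem hw hw', hr1 w hw w' hw' x⟩
    let S : Subgroup G :=
      { carrier := {h | h ∈ A ∧ h * x * h⁻¹ ∈ O}
        one_mem' := ⟨A.one_mem, 1, W.one_mem, by simp [hr2]⟩
        mul_mem' := by
          rintro g h ⟨hg, hg'⟩ ⟨hh, w, hw, hh'⟩
          refine ⟨A.mul_mem hg hh, ?_⟩
          have : g * h * x * (g * h)⁻¹ = g * (h * x * h⁻¹) * g⁻¹ := by group
          rw [this, hh', hr3]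
          exact hO1 _ (hWA g hg w hw) _ hg'
        inv_mem' := by
          rintro h ⟨hh, w, hw, hh'⟩
          refine ⟨A.inv_mem hh, (h⁻¹ * w * h⁻¹⁻¹)⁻¹, W.inv_mem (hWA _ (A.inv_mem hh) w hw), ?_⟩
          have h1 : x = r (h⁻¹ * w * h⁻¹⁻¹) (h⁻¹ * x * h⁻¹⁻¹) := by
            rw [← hr3, ← hh']; group
          conv_rhs => rw [h1]
          rw [hr1 _ (W.inv_mem (hWA _ (A.inv_mem hh) w hw)) _ (hWA _ (A.inv_mem hh) w hw),
            inv_mul_cancel, hr2] }
    have hSO : ∀ h ∈ S, ∀ y ∈ O, h * y * h⁻¹ ∈ O := by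
      rintro h hh _ ⟨w, hw, rfl⟩
      rw [hr3]
      exact hO1 _ (hWA h hh.1 w hw) _ hh.2
    have hSA : S ≤ A := fun h hh => hh.1
    have hDS : ∀ y ∈ O, A ⊓ MulAction.stabilizer G (y • a) ≤ S := by
      rintro _ ⟨w, hw, rfl⟩ h ⟨hh, hh'⟩
      replace hh' := (hcent _ (hrx w hw).1 h hh).mp hh'
      rw [hr3] at hh'
      refine ⟨hh, ?_⟩
      have h1 := hWA h hh w hw
      have h2 : h * x * h⁻¹ = r (h * w * h⁻¹)⁻¹ (r w x) := by
        rw [← hh', hr1 _ (W.inv_mem h1) _ h1, inv_mul_cancel, hr2]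
      rw [h2]
      exact hO1 _ (W.inv_mem h1) _ ⟨w, hw, rfl⟩
    have hxO : x ∈ O := ⟨1, W.one_mem, (hr2 x).symm⟩
    have hyN : ∀ y ∈ O, y ∈ N ∧ y ≠ 1 := by
      rintro _ ⟨w, hw, rfl⟩
      exact hrx w hw
    -- all `S`-orbits on `O` have the same length `k`, which divides both `m` and `|W|`
    set k := (A ⊓ MulAction.stabilizer G (x • a)).relIndex S with hk
    have hcardS : ∀ y ∈ O, Nat.card (A ⊓ MulAction.stabilizer G (y • a) : Subgroup G)
        * (A ⊓ MulAction.stabilizer G (y • a)).relIndex S = Nat.card S := by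
      intro y hy
      rw [← ((A ⊓ MulAction.stabilizer G (y • a)).subgroupOf S).card_mul_index,
        Nat.card_congr (Subgroup.subgroupOfEquivOfLe (hDS y hy)).toEquiv]
      rfl
    have hk' : ∀ y ∈ O, (A ⊓ MulAction.stabilizer G (y • a)).relIndex S = k := by
      intro y hy
      have h1 := hcardS y hy
      have h2 := hcardS x hxO
      rw [hcardD _ (hxa y (hyN y hy).1 (hyN y hy).2)] at h1
      rw [hcardD _ (hxa x hx (hyN x hxO).2)] at h2
      exact Nat.eq_of_mul_eq_mul_left Nat.card_pos (h1.trans h2.symm)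
    have hkm : k ∣ m := by
      rw [← hm' _ (hxa x hx (hyN x hxO).2), ← Subgroup.inf_relIndex_left,
        ← Subgroup.relIndex_mul_relIndex _ S A (hDS x hxO) hSA]
      exact Dvd.intro _ rfl
    have hkO : k ∣ ((fun y => y • a) '' O).ncard := by
      refine H3.dvd_ncard_of_invariant (G := S) _ ?_ ?_
      · rintro h _ ⟨y, hy, rfl⟩
        exact ⟨_, hSO h h.2 y hy, ((H3.conj_eq_of_regular (hNr a) h.2.1 (hyN y hy).1
          (hyN _ (hSO h h.2 y hy)).1).mpr rfl).symm⟩
      · rintro _ ⟨y, hy, rfl⟩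
        rw [← hk' y hy]
        refine Subgroup.index_dvd_of_le (fun g hg => ?_)
        exact ⟨g.2.1, hg⟩
    have hOW : ((fun y => y • a) '' O).ncard ∣ Nat.card W := by
      rw [Set.InjOn.ncard_image]
      · let inst : MulAction W G :=
          { smul := fun w y => r w y
            one_smul := fun y => hr2 y
            mul_smul := fun w w' y => (hr1 w w.2 w' w'.2 y).symm }
        have h1 : O = @MulAction.orbit W G inst.toSMul x := by
          ext y
          exact ⟨fun ⟨w, hw, h⟩ => ⟨⟨w, hw⟩, h.symm⟩, fun ⟨w, h⟩ => ⟨w, w.2, h.symm⟩⟩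
        rw [h1, ← @MulAction.index_stabilizer W G _ inst x]
        exact Subgroup.index_dvd_card _
      · intro y hy z hz hyz
        have := (H3.conj_eq_of_regular (hNr a) (one_smul G a) (hyN y hy).1 (hyN z hz).1).mp
          (by rw [one_smul]; exact hyz)
        simpa using this
    have hk1 : k = 1 := Nat.eq_one_of_dvd_coprimes hcop (hkO.trans hOW) hkm
    intro w hw h hh hhx
    have h1 : h ∈ S := ⟨hh, by rw [hhx]; exact hxO⟩
    have h2 := Subgroup.relIndex_eq_one.mp ((hk' _ ⟨w, hw, rfl⟩).trans hk1) h1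
    exact (hcent _ (hrx w hw).1 h hh).mp h2.2
  -- centralizers in `A` of non-identity elements of `N` are non-trivial and of constant order
  have hDeq : ∀ x ∈ N, x ≠ 1 → ∀ y ∈ N, y ≠ 1 → (∀ h ∈ A, h * x * h⁻¹ = x → h * y * h⁻¹ = y) →
      ∀ h ∈ A, h * y * h⁻¹ = y → h * x * h⁻¹ = x := by
    intro x hx hx1 y hy hy1 hxy h hh hhy
    have h1 : A ⊓ MulAction.stabilizer G (x • a) = A ⊓ MulAction.stabilizer G (y • a) :=
      Subgroup.eq_of_le_of_card_ge
        (fun g hg => ⟨hg.1, (hcent y hy g hg.1).mpr (hxy g hg.1 ((hcent x hx g hg.1).mp hg.2))⟩)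
        (by rw [hcardD _ (hxa x hx hx1), hcardD _ (hxa y hy hy1)])
    have h2 : h ∈ A ⊓ MulAction.stabilizer G (y • a) := ⟨hh, (hcent y hy h hh).mpr hhy⟩
    rw [← h1] at h2
    exact (hcent x hx h hh).mp h2.2
  have hDne : ∀ x ∈ N, x ≠ 1 → ∃ z ∈ N, ∃ h ∈ A, h * x * h⁻¹ = x ∧ h * z * h⁻¹ ≠ z := by
    intro x hx hx1
    have h1 : A ⊓ MulAction.stabilizer G (x • a) ≠ ⊥ := by
      rw [← Subgroup.one_lt_card_iff_ne_bot, hcardD _ (hxa x hx hx1),
        Subgroup.one_lt_card_iff_ne_bot]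
      exact hF
    obtain ⟨h, hh, hh1⟩ := (Subgroup.bot_or_exists_ne_one _).resolve_left h1
    by_contra hcon
    push Not at hcon
    exact hh1 (H3.eq_one_of_commute_transitive (N := N) hh.1 (fun z hz =>
      mul_inv_eq_iff_eq_mul.mp (hcon z hz h hh.1 ((hcent x hx h hh.1).mp hh.2))))
  have hconj : ∀ x ∈ N, ∀ w ∈ N, ∀ h ∈ A, h * x * h⁻¹ = x →
      h * (w * x * w⁻¹) * h⁻¹ = w * x * w⁻¹ := by
    intro x hx w hw h hh hhx
    by_cases hx1 : x = 1
    · simp [hx1]
    exact key N le_rfl (fun h _ w hw => hN.conj_mem w hw h) (fun w y => w * y * w⁻¹)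
      (fun w _ w' _ y => by group) (fun y => by group) (fun h w y => by group) x hx
      (fun w _ => ⟨hN.conj_mem x hx w, fun h => hx1 (conj_eq_one_iff.mp h)⟩) w hw h hh hhx
  -- elements with different centralizers commute
  have hcomm1 : ∀ x ∈ N, ∀ z ∈ N, (∃ h ∈ A, h * x * h⁻¹ = x ∧ h * z * h⁻¹ ≠ z) →
      x * z = z * x := by
    rintro x hx z hz ⟨h, hh, hhx, hhz⟩
    by_contra hne'
    have hc1 : x * z * x⁻¹ * z⁻¹ ≠ 1 := by
      rwa [Ne, mul_inv_eq_one, mul_inv_eq_iff_eq_mul]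
    have hz1 : z ≠ 1 := by rintro rfl; simp at hhz
    have hcN : x * z * x⁻¹ * z⁻¹ ∈ N :=
      N.mul_mem (N.mul_mem (N.mul_mem hx hz) (N.inv_mem hx)) (N.inv_mem hz)
    apply hhz
    refine hDeq z hz hz1 _ hcN hc1 (fun g hg hgz => ?_) h hh ?_
    · calc g * (x * z * x⁻¹ * z⁻¹) * g⁻¹ = g * (x * z * x⁻¹) * g⁻¹ * (g * z * g⁻¹)⁻¹ := by group
        _ = _ := by rw [hconj z hz x hx g hg hgz, hgz]
    · have h1 : h * x⁻¹ * h⁻¹ = x⁻¹ := by rw [← conj_inv, hhx]
      calc h * (x * z * x⁻¹ * z⁻¹) * h⁻¹ = h * x * h⁻¹ * (h * (z * x⁻¹ * z⁻¹) * h⁻¹) := by group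
        _ = _ := by rw [hconj x⁻¹ (N.inv_mem hx) z hz h hh h1, hhx]; group
  have hcomm : ∀ x ∈ N, ∀ y ∈ N, x * y = y * x := by
    intro x hx y hy
    by_cases hx1 : x = 1
    · simp [hx1]
    obtain ⟨z, hz, h, hh, hhx, hhz⟩ := hDne x hx hx1
    by_cases hhy : h * y * h⁻¹ = y
    · have h1 := hcomm1 x hx z hz ⟨h, hh, hhx, hhz⟩
      have h2 := hcomm1 x hx (y * z) (N.mul_mem hy hz) ⟨h, hh, hhx, fun h3 => hhz (by
        have : h * (y * z) * h⁻¹ = h * y * h⁻¹ * (h * z * h⁻¹) := by group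
        rw [this, hhy] at h3
        exact mul_left_cancel h3)⟩
      calc x * y = x * (y * z) * z⁻¹ := by group
        _ = y * (z * x) * z⁻¹ := by rw [h2]; group
        _ = y * x := by rw [← h1]; group
    · exact hcomm1 x hx y hy ⟨h, hh, hhx, hhy⟩
  -- `A` normalizes no proper non-trivial subgroup of `N`
  have hirr : ∀ W : Subgroup G, W ≤ N → (∀ h ∈ A, ∀ w ∈ W, h * w * h⁻¹ ∈ W) → W ≠ ⊥ → N ≤ W := by
    intro W hWN hWA hWb
    by_contra hcon
    obtain ⟨x₀, hx₀, hx₀W⟩ := SetLike.not_le_iff_exists.mp hcon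
    obtain ⟨w₀, hw₀, hw₀1⟩ := (Subgroup.bot_or_exists_ne_one _).resolve_left hWb
    have h1 : ∀ x ∈ N, x ∉ W → ∀ w ∈ W, ∀ h ∈ A, h * x * h⁻¹ = x → h * w * h⁻¹ = w := by
      intro x hx hxW w hw h hh hhx
      have h2 := key W hWN hWA (fun w y => w * y) (fun w _ w' _ y => by group)
        (fun y => by group) (fun h w y => by group) x hx
        (fun w hw => ⟨N.mul_mem (hWN hw) hx, fun h => hxW (by
          rw [eq_inv_of_mul_eq_one_right h]; exact W.inv_mem hw)⟩) w hw h hh hhx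
      have : h * (w * x) * h⁻¹ = h * w * h⁻¹ * (h * x * h⁻¹) := by group
      rw [this, hhx] at h2
      exact mul_right_cancel h2
    have h2 : ∀ x ∈ N, x ∉ W → ∀ h ∈ A, h * w₀ * h⁻¹ = w₀ → h * x * h⁻¹ = x := by
      intro x hx hxW
      exact hDeq x hx (fun h => hxW (h ▸ W.one_mem)) w₀ (hWN hw₀) hw₀1 (h1 x hx hxW w₀ hw₀)
    obtain ⟨z, hz, h, hh, hhw, hhz⟩ := hDne w₀ (hWN hw₀) hw₀1
    by_cases hzW : z ∈ W
    · exact hhz (h1 x₀ hx₀ hx₀W z hzW h hh (h2 x₀ hx₀ hx₀W h hh hhw))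
    · exact hhz (h2 z hz hzW h hh hhw)
  have hNb : N ≠ ⊥ := by
    rintro rfl
    obtain ⟨x, hx⟩ := hNt.exists_smul_eq a b₀
    rw [Subsingleton.elim x 1, one_smul] at hx
    exact hab₀ hx
  refine ⟨?_, fun M hM hMb => ?_⟩
  · obtain ⟨x, hx, hp⟩ := H3.exists_prime_orderOf_mem hNb
    refine ⟨orderOf x, hp, ⟨⟨fun y z => Subtype.ext (hcomm y y.2 z z.2)⟩⟩, fun y hy => ?_⟩
    let W : Subgroup G :=
      { carrier := {w | w ∈ N ∧ w ^ orderOf x = 1}
        one_mem' := ⟨N.one_mem, one_pow _⟩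
        mul_mem' := fun {u v} hu hv => ⟨N.mul_mem hu.1 hv.1, by
          rw [Commute.mul_pow (hcomm u hu.1 v hv.1), hu.2, hv.2, one_mul]⟩
        inv_mem' := fun {u} hu => ⟨N.inv_mem hu.1, by rw [inv_pow, hu.2, inv_one]⟩ }
    refine (hirr W (fun w hw => hw.1) (fun h _ w hw => ⟨hN.conj_mem w hw.1 h, ?_⟩) ?_ hy).2
    · rw [conj_pow, hw.2]; simp
    · intro hb
      have : x ∈ W := ⟨hx, pow_orderOf_eq_one x⟩
      rw [hb, Subgroup.mem_bot] at this
      exact H3.ne_one_of_orderOf_prime hp this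
  · refine (hirr (M ⊓ N) inf_le_right
      (fun h _ w hw => ⟨hM.conj_mem w hw.1 h, hN.conj_mem w hw.2 h⟩) (fun hb => hMb ?_)).trans
      inf_le_left
    have : Nonempty Ω := ⟨a⟩
    rw [eq_bot_iff, ← hb]
    intro g hg
    exact ⟨hg, H3.mem_of_commute_transitive (Ω := Ω) hcomm (fun x hx =>
      (Subgroup.commute_of_normal_of_disjoint M N hM hN (disjoint_iff.mpr hb) g x hg hx).eq)⟩

end Cfsg.Agent.S3356
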