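import Cfsg.Statements.S3379

set_option autoImplicit false
open Cfsg

namespace Cfsg.Agent.S3379

/-- Let G be a finite group all of whose Sylow subgroups are cyclic. Then G is generated by two elements x and y of coprime orders n and m with x⁻¹yx = y^r, where gcd(r − 1, m) = 1 and r^n ≡ 1 (mod m). -/
theorem result {G : Type*} [Group G] [Finite G]
    (hZ : ∀ (p : ℕ) [Fact p.Prime] (P : Sylow p G), IsCyclic (P : Subgroup G)) :
    ∃ (x y : G) (n m r : ℕ), Subgroup.closure {x, y} = ⊤ ∧ orderOf x = n ∧ orderOf y = m ∧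
      x⁻¹ * y * x = y ^ r ∧ Nat.Coprime (r - 1) m ∧ Nat.Coprime n m ∧ 1 ≤ r ∧ r ^ n % m = 1 % m := by
  have hG : IsZGroup G := ⟨fun p hp P => by have := Fact.mk hp; exact hZ p P⟩
  obtain ⟨H, hH⟩ := Subgroup.exists_right_complement'_of_coprime hG.coprime_commutator_index
  have h1 : Abelianization G ≃* H := hH.symm.QuotientMulEquiv
  have hHc : IsCyclic H := isCyclic_of_surjective _ h1.surjective
  have hNc : IsCyclic (commutator G) := hG.isCyclic_commutator
  have hcop : (Nat.card (commutator G)).Coprime (Nat.card H) :=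
    Nat.card_congr h1.toEquiv ▸ hG.coprime_commutator_index
  obtain ⟨x, hx⟩ := (Subgroup.isCyclic_iff_exists_zpowers_eq_top H).mp hHc
  obtain ⟨y, hy⟩ := (Subgroup.isCyclic_iff_exists_zpowers_eq_top (commutator G)).mp hNc
  have hyN : y ∈ commutator G := hy ▸ Subgroup.mem_zpowers y
  have hconj : x⁻¹ * y * x ∈ Subgroup.zpowers y := by
    rw [hy]
    simpa using (inferInstance : (commutator G).Normal).conj_mem y hyN x⁻¹
  rw [← mem_powers_iff_mem_zpowers] at hconj
  obtain ⟨r₀, hr₀⟩ := hconj
  have hr₀ : y ^ r₀ = x⁻¹ * y * x := hr₀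
  have hm : 0 < orderOf y := orderOf_pos y
  set r := r₀ + orderOf y with hr
  have hyr : x⁻¹ * y * x = y ^ r := by rw [hr, pow_add, pow_orderOf_eq_one, mul_one, hr₀]
  have htop : Subgroup.closure {x, y} = ⊤ := by
    rw [eq_top_iff, ← hH.sup_eq_top, ← hx, ← hy, sup_le_iff, Subgroup.zpowers_le,
      Subgroup.zpowers_le]
    exact ⟨Subgroup.subset_closure (by simp), Subgroup.subset_closure (by simp)⟩
  have hpow : ∀ k : ℕ, (x ^ k)⁻¹ * y * x ^ k = y ^ (r ^ k) := by
    intro k
    induction k with
    | zero => simp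
    | succ k ih =>
      have : (x ^ (k + 1))⁻¹ * y * x ^ (k + 1) = x⁻¹ * ((x ^ k)⁻¹ * y * x ^ k) * x := by
        rw [pow_succ]; group
      rw [this, ih, pow_succ', pow_mul, ← hyr]
      have := conj_pow (a := x⁻¹) (b := y) (i := r ^ k)
      rw [inv_inv] at this
      exact this.symm
  refine ⟨x, y, orderOf x, orderOf y, r, htop, rfl, rfl, hyr, ?_, ?_, by omega, ?_⟩
  · -- the commutator subgroup is generated by `y ^ (r - 1)`
    have hK : (Subgroup.zpowers (y ^ (r - 1))).Normal := by
      have : (Subgroup.zpowers y).Normal := by rw [hy]; infer_instance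
      constructor
      intro a ha g
      obtain ⟨k, rfl⟩ := Subgroup.mem_zpowers_iff.mp ha
      obtain ⟨l, hl⟩ := Subgroup.mem_zpowers_iff.mp (this.conj_mem y (Subgroup.mem_zpowers y) g)
      have h3 : ((y ^ l) ^ (r - 1)) ^ k = (y ^ (r - 1)) ^ (l * k) := by
        rw [← zpow_natCast (y ^ l), ← zpow_natCast y, ← zpow_mul, ← zpow_mul, ← zpow_mul]
        congr 1
        ring
      rw [← conj_zpow, ← conj_pow, ← hl, h3]
      exact Subgroup.zpow_mem_zpowers _ _
    let K := Subgroup.zpowers (y ^ (r - 1))
    have hxy : Commute (QuotientGroup.mk' K x) (QuotientGroup.mk' K y) := by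
      have h2 : y⁻¹ * (x⁻¹ * y * x) ∈ K := by
        rw [hyr]
        have : y ^ r = y * y ^ (r - 1) := by
          rw [← pow_succ']; congr 1; omega
        rw [this, inv_mul_cancel_left]
        exact Subgroup.mem_zpowers _
      rw [Commute, SemiconjBy, ← map_mul, ← map_mul, QuotientGroup.mk'_apply,
        QuotientGroup.mk'_apply, QuotientGroup.eq]
      convert h2 using 1
      group
    have hcomm : ∀ a b : G ⧸ K, a * b = b * a := by
      have h3 : Subgroup.closure {QuotientGroup.mk' K x, QuotientGroup.mk' K y} = ⊤ := by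
        have := congrArg (Subgroup.map (QuotientGroup.mk' K)) htop
        rwa [MonoidHom.map_closure, Set.image_pair,
          Subgroup.map_top_of_surjective _ (QuotientGroup.mk'_surjective K)] at this
      have h4 : IsMulCommutative
          (Subgroup.closure {QuotientGroup.mk' K x, QuotientGroup.mk' K y}) := by
        apply Subgroup.isMulCommutative_closure
        rintro a (rfl | rfl) b (rfl | rfl)
        · rfl
        · exact hxy
        · exact hxy.symm
        · rfl
      intro a b
      exact congrArg Subtype.val (h4.is_comm.comm ⟨a, h3 ▸ Subgroup.mem_top a⟩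
        ⟨b, h3 ▸ Subgroup.mem_top b⟩)
    have h5 : commutator G ≤ K := by
      rw [commutator_def, Subgroup.commutator_le]
      intro a _ b _
      rw [← QuotientGroup.eq_one_iff, ← QuotientGroup.mk'_apply, map_commutatorElement,
        commutatorElement_eq_one_iff_mul_comm]
      exact hcomm _ _
    exact mem_zpowers_pow_iff.mp (h5 hyN)
  · rw [← Nat.card_zpowers, ← Nat.card_zpowers, hx, hy]
    exact hcop.symm
  · have := hpow (orderOf x)
    rw [pow_orderOf_eq_one, inv_one, one_mul, mul_one] at this
    have h2 : y ^ (r ^ orderOf x) = y ^ 1 := by rw [← this, pow_one]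
    exact pow_inj_mod.mp h2

end Cfsg.Agent.S3379
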