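import Cfsg.Statements.S3358
import Cfsg.Agent.H4.CQ
import Cfsg.Agent.S3379

set_option autoImplicit false
open Cfsg

namespace Cfsg.Agent.S3358

open L0.Frob Subgroup

section Fpf

variable {G : Type*} [Group G] [Finite G] {A : Type*} [Ring A] [Algebra ℚ A] [Nontrivial A]
  {ρ : G →* A} (hf : Fpf ρ)
include hf

/-- An element of prime order does not act fixed point freely on a nontrivial subgroup. -/
theorem no_frob {p : ℕ} (hp : p.Prime) {u : G} (hu : orderOf u = p) {W : Subgroup G}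
    (hn : ∀ v ∈ W, u * v * u⁻¹ ∈ W) (hc : ∀ v ∈ W, u * v = v * u → v = 1) : W = ⊥ := by
  classical
  have := Fintype.ofFinite W
  by_contra hW
  obtain ⟨w, hw⟩ := (ne_bot_iff_exists_ne_one.mp hW)
  have h1 : ∑ v : W, ρ v = 0 := by
    refine hf.cancel (g := w) (fun h => hw (Subtype.ext h)) ?_
    rw [sub_mul, one_mul, Finset.mul_sum, sub_eq_zero]
    exact Fintype.sum_equiv (Equiv.mulLeft w) _ _ fun v => by simp
  have hu1 : u ≠ 1 := by
    rintro rfl
    exact hp.ne_one (hu.symm.trans orderOf_one)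
  have h2 := hf.geom hu1 (hu ▸ pow_orderOf_eq_one u : u ^ p = 1)
  have hn' : ∀ j : ℕ, ∀ v ∈ W, u ^ j * v * (u ^ j)⁻¹ ∈ W := by
    intro j v hv
    induction j with
    | zero => simpa using hv
    | succ j ih =>
      have := hn _ ih
      rwa [show u * (u ^ j * v * (u ^ j)⁻¹) * u⁻¹ = u ^ (j + 1) * v * (u ^ (j + 1))⁻¹ by
        rw [pow_succ']; group] at this
  have h3 : ∀ j ∈ Finset.range p, j ≠ 0 → ∑ v : W, ρ v * ρ u ^ j * ρ (v : G)⁻¹ = 0 := by
    intro j hj hj0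
    let δ : W → W := fun v => ⟨v * (u ^ j * (v : G)⁻¹ * (u ^ j)⁻¹),
      mul_mem v.2 (hn' j _ (inv_mem v.2))⟩
    have hδ : Function.Injective δ := by
      intro v v' h
      have h4 : u ^ j * ((v' : G)⁻¹ * v) = ((v' : G)⁻¹ * v) * u ^ j := by
        have h5 : (v : G) * (u ^ j * (v : G)⁻¹ * (u ^ j)⁻¹) = v' * (u ^ j * (v' : G)⁻¹ * (u ^ j)⁻¹) :=
          congrArg Subtype.val h
        calc u ^ j * ((v' : G)⁻¹ * v) = (v' : G)⁻¹ * (v' * (u ^ j * (v' : G)⁻¹ * (u ^ j)⁻¹)) *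
              u ^ j * v := by group
          _ = _ := by rw [← h5]; group
      obtain ⟨k, hk⟩ := exists_pow_eq_self_of_coprime (x := u) (n := j) (by
        rw [hu]
        exact (Nat.coprime_of_lt_prime hj0 (Finset.mem_range.mp hj) hp).symm)
      have h6 := hc _ (mul_mem (inv_mem v'.2) v.2) (by
        have := (Commute.pow_left h4 k).eq
        rwa [hk] at this)
      exact Subtype.ext (inv_mul_eq_one.mp h6).symm
    have h4 := Fintype.sum_bijective δ (Finite.injective_iff_bijective.mp hδ)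
      (fun v => ρ v * ρ u ^ j * ρ (v : G)⁻¹) (fun v => ρ v * ρ u ^ j) fun v => by
        simp only [δ, ← map_pow, ← map_mul]
        congr 1
        group
    rw [h4, ← Finset.sum_mul, h1, zero_mul]
  have h4 : ∑ j ∈ Finset.range p, ∑ v : W, ρ v * ρ u ^ j * ρ (v : G)⁻¹ = 0 := by
    rw [Finset.sum_comm]
    refine Finset.sum_eq_zero fun v _ => ?_
    rw [← Finset.sum_mul, ← Finset.mul_sum, h2, mul_zero, zero_mul]
  rw [Finset.sum_eq_single_of_mem 0 (Finset.mem_range.mpr hp.pos) h3] at h4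
  simp only [pow_zero, mul_one, ← map_mul, mul_inv_cancel, map_one, Finset.sum_const,
    Finset.card_univ] at h4
  refine smul_one_ne (B := A) (r := Fintype.card W) (by exact_mod_cast Fintype.card_ne_zero) ?_
  rwa [Nat.cast_smul_eq_nsmul]

theorem comm_of_prime {p : ℕ} (hp : p.Prime) {u y : G} (hu : orderOf u = p)
    (hy : (orderOf y).Coprime p) (hn : u * y * u⁻¹ ∈ zpowers y) : u * y = y * u := by
  have h1 : ∀ v ∈ zpowers y, u * v * u⁻¹ ∈ zpowers y := by
    intro v hv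
    obtain ⟨k, rfl⟩ := mem_zpowers_iff.mp hv
    rw [← conj_zpow]
    exact zpow_mem hn k
  have h2 : ∀ v ∈ zpowers y, ∀ v' ∈ zpowers y, Commute v v' := fun v hv v' hv' => by
    obtain ⟨k, rfl⟩ := mem_zpowers_iff.mp hv
    obtain ⟨l, rfl⟩ := mem_zpowers_iff.mp hv'
    exact Commute.zpow_zpow_self y k l
  have hd : u * y * u⁻¹ * y⁻¹ ∈ zpowers y := mul_mem hn (inv_mem (mem_zpowers y))
  have h3 := no_frob hf hp hu (W := zpowers (u * y * u⁻¹ * y⁻¹)) (fun v hv => by
    obtain ⟨k, rfl⟩ := mem_zpowers_iff.mp hv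
    obtain ⟨l, hl⟩ := mem_zpowers_iff.mp hn
    rw [← conj_zpow]
    refine zpow_mem (mem_zpowers_iff.mpr ⟨l, ?_⟩) k
    rw [(h2 _ hn _ (inv_mem (mem_zpowers y))).mul_zpow, conj_zpow, inv_zpow, hl]
    group) fun v hv hc => by
    obtain ⟨k, hk⟩ := mem_zpowers_iff.mp hv
    rw [(h2 _ hn _ (inv_mem (mem_zpowers y))).mul_zpow, conj_zpow, inv_zpow] at hk
    have h4 : ∀ j : ℕ, u ^ j * y ^ k * (u ^ j)⁻¹ = v ^ j * y ^ k := by
      intro j
      induction j with
      | zero => simp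
      | succ j ih =>
        calc u ^ (j + 1) * y ^ k * (u ^ (j + 1))⁻¹ = u * (u ^ j * y ^ k * (u ^ j)⁻¹) * u⁻¹ := by
              rw [pow_succ']; group
          _ = (u * v ^ j) * u⁻¹ * (u * y ^ k * u⁻¹ * (y ^ k)⁻¹) * y ^ k := by rw [ih]; group
          _ = _ := by rw [hk, (Commute.pow_right hc j).eq, pow_succ]; group
    have h5 := h4 p
    rw [← hu, pow_orderOf_eq_one, one_mul, inv_one, mul_one, eq_comm, mul_eq_right,
      ← orderOf_dvd_iff_pow_eq_one, hu] at h5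
    have h6 := (zpowers y).orderOf_dvd_natCard (zpowers_le_of_mem hd hv)
    rw [Nat.card_zpowers] at h6
    exact orderOf_eq_one_iff.mp (Nat.eq_one_of_dvd_coprimes hy h6 h5)
  rw [zpowers_eq_bot, mul_inv_eq_one, mul_inv_eq_iff_eq_mul] at h3
  exact h3

theorem pow_mod {x y : G} {r : ℕ} (h : x⁻¹ * y * x = y ^ r)
    (hc : (orderOf x).Coprime (orderOf y)) :
    r ^ (orderOf x / ∏ p ∈ (orderOf x).primeFactors, p) % orderOf y = 1 % orderOf y := by
  have h1 : ∀ k : ℕ, (x ^ k)⁻¹ * y * x ^ k = y ^ r ^ k := by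
    intro k
    induction k with
    | zero => simp
    | succ k ih =>
      calc (x ^ (k + 1))⁻¹ * y * x ^ (k + 1) = x⁻¹ * ((x ^ k)⁻¹ * y * x ^ k) * x⁻¹⁻¹ := by
            rw [pow_succ]; group
        _ = _ := by rw [ih, ← conj_pow, inv_inv, h, ← pow_mul, pow_succ']
  have h2 : ∀ k : ℕ, orderOf (r : ZMod (orderOf y)) ∣ k ↔ y * x ^ k = x ^ k * y := by
    intro k
    rw [orderOf_dvd_iff_pow_eq_one, ← Nat.cast_pow, ← Nat.cast_one, ZMod.natCast_eq_natCast_iff,
      ← pow_eq_pow_iff_modEq, ← h1, pow_one, mul_assoc, inv_mul_eq_iff_eq_mul]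
  set e := orderOf (r : ZMod (orderOf y))
  have h3 : e ∣ orderOf x := (h2 _).mpr (by simp [pow_orderOf_eq_one])
  have h4 : (∏ p ∈ (orderOf x).primeFactors, p) ∣ orderOf x / e := by
    refine Finset.prod_primes_dvd _ (fun p hp => (Nat.prime_of_mem_primeFactors hp).prime)
      fun p hp => ?_
    have hp' := Nat.prime_of_mem_primeFactors hp
    have hd := Nat.dvd_of_mem_primeFactors hp
    have h5 := comm_of_prime hf hp' (u := (x ^ (orderOf x / p))⁻¹) (y := y)
      (by rw [orderOf_inv, orderOf_pow_orderOf_div (orderOf_pos x).ne' hd])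
      (hc.coprime_dvd_left hd).symm (by rw [inv_inv, h1]; exact npow_mem_zpowers _ _)
    have h6 := (h2 _).mpr (Commute.inv_left_iff.mp h5).symm.eq
    refine Nat.dvd_div_of_mul_dvd ?_
    rw [mul_comm]
    exact Nat.mul_dvd_of_dvd_div hd h6
  have h5 : e ∣ orderOf x / ∏ p ∈ (orderOf x).primeFactors, p := by
    refine Nat.dvd_div_of_mul_dvd ?_
    rw [mul_comm]
    exact Nat.mul_dvd_of_dvd_div h3 h4
  rw [orderOf_dvd_iff_pow_eq_one, ← Nat.cast_pow, ← Nat.cast_one,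
    ZMod.natCast_eq_natCast_iff] at h5
  exact h5

end Fpf

theorem pres {G : Type*} [Group G] [Finite G] {x y : G} {r : ℕ} (hg : closure {x, y} = ⊤)
    (h : x⁻¹ * y * x = y ^ r) (hc : (orderOf x).Coprime (orderOf y)) :
    Nonempty (G ≃* PresentedGroup
      ({FreeGroup.of (0 : Fin 2) ^ orderOf x, FreeGroup.of (1 : Fin 2) ^ orderOf y,
        (FreeGroup.of (0 : Fin 2))⁻¹ * FreeGroup.of 1 * FreeGroup.of 0 *
          (FreeGroup.of (1 : Fin 2) ^ r)⁻¹} : Set (FreeGroup (Fin 2)))) := by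
  set R : Set (FreeGroup (Fin 2)) := {FreeGroup.of (0 : Fin 2) ^ orderOf x,
    FreeGroup.of (1 : Fin 2) ^ orderOf y, (FreeGroup.of (0 : Fin 2))⁻¹ * FreeGroup.of 1 *
      FreeGroup.of 0 * (FreeGroup.of (1 : Fin 2) ^ r)⁻¹} with hR
  let φ : PresentedGroup R →* G := PresentedGroup.toGroup (f := ![x, y]) (by
    rintro _ (rfl | rfl | rfl) <;> simp [pow_orderOf_eq_one, h])
  set X : PresentedGroup R := PresentedGroup.of 0
  set Y : PresentedGroup R := PresentedGroup.of 1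
  have hX : φ X = x := PresentedGroup.toGroup.of _
  have hY : φ Y = y := PresentedGroup.toGroup.of _
  have r1 : X ^ orderOf x = 1 := PresentedGroup.one_of_mem (rels := R) (by simp [hR] :
    FreeGroup.of 0 ^ orderOf x ∈ R)
  have r2 : Y ^ orderOf y = 1 := PresentedGroup.one_of_mem (rels := R) (by simp [hR] :
    FreeGroup.of 1 ^ orderOf y ∈ R)
  have r3 : X⁻¹ * Y * X * (Y ^ r)⁻¹ = 1 := PresentedGroup.one_of_mem (rels := R) (by simp [hR] :
    (FreeGroup.of (0 : Fin 2))⁻¹ * FreeGroup.of 1 * FreeGroup.of 0 *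
      (FreeGroup.of (1 : Fin 2) ^ r)⁻¹ ∈ R)
  have : Finite (zpowers Y) := finite_zpowers.mpr (isOfFinOrder_iff_pow_eq_one.mpr
    ⟨_, orderOf_pos y, r2⟩)
  have h1 : ∀ g : PresentedGroup R, g ∈ normalizer (zpowers Y : Set (PresentedGroup R)) := by
    refine PresentedGroup.generated_by _ _ fun i => ?_
    fin_cases i
    · refine inv_mem_iff.mp (mem_normalizer_fintype fun v hv => ?_)
      obtain ⟨k, rfl⟩ := mem_zpowers_iff.mp hv
      rw [← conj_zpow, inv_inv]
      exact zpow_mem (mul_inv_eq_one.mp r3 ▸ npow_mem_zpowers Y r) k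
    · exact le_normalizer (mem_zpowers Y)
  have : (zpowers Y).Normal := normalizer_eq_top_iff.mp (eq_top_iff.mpr fun g _ => h1 g)
  refine ⟨(MulEquiv.ofBijective φ ⟨(injective_iff_map_eq_one φ).mpr fun g hg' => ?_, ?_⟩).symm⟩
  · obtain ⟨_, ⟨i, rfl⟩, _, ⟨j, rfl⟩, rfl⟩ := mem_sup_of_normal_right.mp
      (PresentedGroup.generated_by R (zpowers X ⊔ zpowers Y) (fun i => by
        fin_cases i
        · exact mem_sup_left (mem_zpowers X)
        · exact mem_sup_right (mem_zpowers Y)) g)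
    simp only [map_mul, map_zpow, hX, hY] at hg' ⊢
    have h2 : x ^ i = 1 := by
      have h3 := (zpowers x).orderOf_dvd_natCard (zpow_mem_zpowers x i)
      have h4 := (zpowers y).orderOf_dvd_natCard (inv_mem (zpow_mem_zpowers y j))
      rw [← eq_inv_of_mul_eq_one_left hg'] at h4
      rw [Nat.card_zpowers] at h3 h4
      exact orderOf_eq_one_iff.mp (Nat.eq_one_of_dvd_coprimes hc h3 h4)
    rw [h2, one_mul] at hg'
    obtain ⟨k, rfl⟩ := orderOf_dvd_iff_zpow_eq_one.mpr h2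
    obtain ⟨l, rfl⟩ := orderOf_dvd_iff_zpow_eq_one.mpr hg'
    rw [zpow_mul, zpow_mul, zpow_natCast, zpow_natCast, r1, r2, one_zpow, one_zpow, one_mul]
  · rw [← MonoidHom.range_eq_top, eq_top_iff, ← hg, closure_le]
    rintro _ (rfl | rfl)
    exacts [⟨X, hX⟩, ⟨Y, hY⟩]

/-- Structure of solvable Frobenius complements. Let G be a finite solvable group that occurs as a Frobenius complement. Then G has a normal subgroup G₀ such that G/G₀ is isomorphic to a subgroup of Sym(4) (G₀ is the kernel of a homomorphism to Sym(4)), all Sylow subgroups of G₀ are cyclic, and G₀ has a presentation ⟨x, y | x^n = 1, y^m = 1, x⁻¹ y x = y^r⟩ with n, m ≥ 1, gcd(r − 1, m) = gcd(n, m) = 1 and r^(n/n′) ≡ 1 (mod m), where n′ is the product of the distinct primes dividing n. -/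
theorem result {G : Type*} [Group G] [Finite G] (hsol : Group.IsSolvable G)
    (hFC : ∃ (L : Type) (_ : Group L) (_ : Finite L) (H : Subgroup L), Cfsg.IsFrobeniusComplement H ∧ Nonempty (G ≃* H)) :
    ∃ G₀ : Subgroup G, G₀.Normal ∧
      (∃ f : G →* Equiv.Perm (Fin 4), f.ker = G₀) ∧
      (∀ (p : ℕ) [Fact p.Prime] (P : Sylow p G₀), IsCyclic P) ∧
      ∃ n m r : ℕ, 0 < n ∧ 0 < m ∧ Nat.Coprime (r - 1) m ∧ Nat.Coprime n m ∧ 1 ≤ r ∧
        r ^ (n / ∏ p ∈ n.primeFactors, p) % m = 1 % m ∧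
        Nonempty (G₀ ≃* PresentedGroup
          ({FreeGroup.of (0 : Fin 2) ^ n, FreeGroup.of (1 : Fin 2) ^ m,
            (FreeGroup.of (0 : Fin 2))⁻¹ * FreeGroup.of 1 * FreeGroup.of 0 * (FreeGroup.of (1 : Fin 2) ^ r)⁻¹} :
            Set (FreeGroup (Fin 2)))) := by
  obtain ⟨L, _, _, H, hH, ⟨e⟩⟩ := hFC
  obtain ⟨k, ρ, hk, hf⟩ := exists_fpf hH e
  have : Nonempty (Fin k) := ⟨⟨0, hk⟩⟩
  obtain ⟨f, h1⟩ := H4.CQ.exists_hom fun p hp P hP => hf.cyclic_or_quaternion hp hP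
  obtain ⟨x, y, n, m, r, hg, rfl, rfl, h2, h3, h4, h5, -⟩ := S3379.result h1
  exact ⟨f.ker, inferInstance, ⟨f, rfl⟩, h1, _, _, r, orderOf_pos x, orderOf_pos y, h3, h4, h5,
    pow_mod (hf.sub f.ker) h2 h4, pres hg h2 h4⟩

end Cfsg.Agent.S3358
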