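import Cfsg.Statements.S3361
import Cfsg.Agent.S3360

set_option autoImplicit false
open Cfsg

namespace Cfsg.Agent.S3361

open H5

theorem index_two_of_quot {G : Type*} [Group G] [Finite G] (T : Subgroup G) [T.Normal] (r : ℕ)
    (hr : ¬ 2 ∣ r) (h : T.index = 2 * r) : ∃ N : Subgroup G, N.Normal ∧ N.index = 2 := by
  obtain ⟨P⟩ : Nonempty (Sylow 2 (G ⧸ T)) := inferInstance
  have hc : Nat.card (G ⧸ T) = 2 * r := h
  have hP : Nat.card P ∣ 2 := by
    obtain ⟨k, hk⟩ := IsPGroup.iff_card.1 P.isPGroup'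
    have h1 : Nat.card P ∣ 2 * r := hc ▸ Subgroup.card_subgroup_dvd_card _
    rw [hk] at h1 ⊢
    exact Nat.Coprime.dvd_of_dvd_mul_right
      (Nat.Coprime.pow_left _ ((Nat.Prime.coprime_iff_not_dvd Nat.prime_two).2 hr)) h1
  obtain ⟨N, hN, hN2⟩ := exists_index_two_of_cyclic_sylow P (isCyclic_of_card_dvd_prime hP)
    (hc ▸ even_two_mul r)
  exact ⟨N.comap (QuotientGroup.mk' T), inferInstance, by
    rw [Subgroup.index_comap_of_surjective _ (QuotientGroup.mk'_surjective T), hN2]⟩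

theorem result
    (q : ℕ) [Fact q.Prime] {V : Type*} [AddCommGroup V] [Module (ZMod q) V] [Finite V] [Nontrivial V]
    {G : Type*} [Group G] [Finite G] (hsol : Group.IsSolvable G)
    (ρ : G →* (V ≃ₗ[ZMod q] V)) (hρ : Function.Injective ρ)
    (htrans : ∀ v w : V, v ≠ 0 → w ≠ 0 → ∃ g : G, ρ g v = w)
    (hreg : ∀ v : V, v ≠ 0 → ∀ g : G, ρ g v = v → g = 1) :
    ((∃ (F : Type) (_ : Field F) (_ : Fintype F) (e : V ≃+ F),
        ∀ g : G, ∃ (a : F) (σ : F ≃+* F), ∀ v : V, e (ρ g v) = a * σ (e v)) ∨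
      Nat.card V ∈ ({25, 49, 121, 529} : Set ℕ)) ∧
    (q ≠ 2 → (∃ N : Subgroup G, N.Normal ∧ N.index = 2) ∨
      (Nat.card V = 25 ∧ Nonempty (G ≃* Matrix.SpecialLinearGroup (Fin 2) (ZMod 3))) ∨
      (Nat.card V = 121 ∧ Nonempty (G ≃* Matrix.SpecialLinearGroup (Fin 2) (ZMod 3) × Multiplicative (ZMod 5)))) := by
  obtain ⟨A, hA, hc, hmax, h⟩ := huppert_structure ρ hsol hρ htrans
  obtain ⟨m, s, hm, hs, hV, hcyc, h1, h2, h2', h3⟩ := normal_abelian_field ρ hρ htrans A hc
  obtain ⟨v, hv⟩ := exists_ne (0 : V)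
  have h4 : Nat.card G = q ^ (m * s) - 1 := by
    rw [← hV, ← index_vstab_of_transitive ρ htrans hv,
      (eq_bot_iff.2 fun g hg => hreg v hv g hg : vstab ρ v = ⊥), Subgroup.index_bot]
  rcases h with h | ⟨T, hT, hT2, z, y, a1, a2, a3, a4, a5, -⟩ | ⟨T, hT, hq, hTC, ⟨e⟩, h⟩
  · have hs1 : s = 1 := by
      refine arith_one (Fact.out : q.Prime).two_le hm hs ?_
      rw [← h4, ← A.index_mul_card]
      exact Nat.mul_dvd_mul (h ▸ h2) h1
    refine ⟨Or.inl (h3 hs1).1, fun hq => Or.inl ?_⟩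
    rw [h] at h2'
    rcases Nat.even_or_odd A.index with hi | hi
    · exact h2' hi
    obtain ⟨P⟩ : Nonempty (Sylow 2 G) := inferInstance
    have hPA : (P : Subgroup G) ≤ A := by
      rw [← Subgroup.relIndex_eq_one]
      obtain ⟨k, hk⟩ := IsPGroup.iff_card.1 P.isPGroup'
      have b1 := Subgroup.relIndex_dvd_index_of_normal A P
      have b2 := Subgroup.relIndex_dvd_card A P
      rw [hk] at b2
      exact Nat.eq_one_of_dvd_coprimes
        (Nat.Coprime.pow_left k (Nat.coprime_two_left.2 hi)) b2 b1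
    refine exists_index_two_of_cyclic_sylow P (Subgroup.isCyclic_of_le hPA) ?_
    rw [h4]
    exact Nat.Odd.sub_odd ((Fact.out : q.Prime).odd_of_ne_two hq).pow odd_one
  · exfalso
    obtain ⟨w, g, hw, hg1, hg⟩ := exists_fixed_of_pp (ρ.comp T.subtype)
      (Subgroup.mem_center_iff.1 a3 y) a5 a2 a1 a4
    exact hg1 (Subtype.ext (hreg w hw g hg))
  · have hna : ¬ ((e.symm (.a 1) : T) : G) * (e.symm (.xa 0) : T) =
        (e.symm (.xa 0) : T) * (e.symm (.a 1) : T) := by
      intro h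
      have h5 : e.symm (.a 1 * .xa 0) = e.symm (.xa 0 * .a 1) := by
        rw [map_mul, map_mul]; exact Subtype.ext h
      exact absurd (e.symm.injective h5) (by decide)
    have hs1 : s ≠ 1 := fun hs1 =>
      hna ((h3 hs1).2 _ (hTC (e.symm (.a 1)).2) _ (hTC (e.symm (.xa 0)).2))
    obtain ⟨k, hk, hG⟩ := S3360.card_dvd A T e h
    obtain ⟨rfl, rfl, h5⟩ := arith_24 Fact.out hq hm (s := s) (by omega) (by
      rw [← h4, hG]; exact Nat.mul_dvd_mul (Nat.mul_dvd_mul hk h2) h1)
    have hC : Subgroup.centralizer (A : Set G) = ⊤ := by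
      rw [← Subgroup.index_eq_one]; exact Nat.dvd_one.1 h2
    rw [hC, top_inf_eq] at h
    rw [hC, Subgroup.index_top, mul_one] at hG
    have hTc : Nat.card T = 8 := by
      rw [Nat.card_congr e.toEquiv, Nat.card_eq_fintype_card, QuaternionGroup.card]
    have hTi := T.index_mul_card
    rw [hTc, h4] at hTi
    have h3F : Fact (Nat.Prime 3) := ⟨Nat.prime_three⟩
    have hy : 3 ∣ Nat.card G → ¬ 3 ∣ Nat.card A →
        ∃ F : Matrix.SpecialLinearGroup (Fin 2) (ZMod 3) →* G, 24 ∣ Nat.card F.range := by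
      intro b1 b2
      obtain ⟨y, hy⟩ := exists_prime_orderOf_dvd_card' 3 b1
      refine exists_hom_SL23 T e (y := y) (hy ▸ pow_orderOf_eq_one y) fun b3 => b2 ?_
      rw [h] at b3
      exact hy ▸ Subgroup.orderOf_dvd_natCard _ b3
    rcases h5 with rfl | rfl | rfl | rfl | rfl
    · exfalso
      apply hna
      have b1 : (Subgroup.zpowers ((e.symm (.a 1) : T) : G)).index = 2 := by
        have := (Subgroup.zpowers ((e.symm (.a 1) : T) : G)).index_mul_card
        rw [Nat.card_zpowers, Subgroup.orderOf_coe, MulEquiv.orderOf_eq,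
          QuaternionGroup.orderOf_a_one, h4] at this
        omega
      have b2 := hmax _ (Subgroup.normal_of_index_eq_two b1) (by
        rintro _ ⟨i, rfl⟩ _ ⟨j, rfl⟩
        exact (Commute.zpow_zpow_self _ i j).eq) (hC ▸ le_top) (Subgroup.mem_zpowers _)
      exact Subgroup.mem_centralizer_iff.1 (hTC (e.symm (.xa 0)).2) _ b2
    · refine ⟨Or.inr (by simp [hV]), fun _ => Or.inr (Or.inl ⟨hV, ?_⟩)⟩
      obtain ⟨F, hF⟩ := hy (by rw [h4]; norm_num) (fun b => by
        have := b.trans h1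
        norm_num at this)
      exact ⟨(MulEquiv.ofBijective F (bijective_of_dvd_card_range F (h4 ▸ hF)
        (card_SL23.trans h4.symm))).symm⟩
    · exact ⟨Or.inr (by simp [hV]), fun _ => Or.inl (index_two_of_quot T 3 (by norm_num)
        (by omega))⟩
    · refine ⟨Or.inr (by simp [hV]), fun _ => Or.inr (Or.inr ⟨hV, ?_⟩)⟩
      obtain ⟨F, hF⟩ := hy (by rw [h4]; norm_num) (fun b => by
        have := b.trans h1
        norm_num at this)
      have h5F : Fact (Nat.Prime 5) := ⟨by norm_num⟩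
      have b1 : 5 ∣ Nat.card A := by
        have b2 : 5 ∣ k * Nat.card A := by rw [← hG, h4]; norm_num
        refine ((Nat.Prime.dvd_mul h5F.out).1 b2).resolve_left fun b => ?_
        have := b.trans hk
        norm_num at this
      obtain ⟨c, hc5⟩ := exists_prime_orderOf_dvd_card' 5 b1
      rw [← Subgroup.orderOf_coe] at hc5
      have hc1 : (c : G) ^ 5 = 1 := hc5 ▸ pow_orderOf_eq_one _
      let Φ := F.noncommCoprod (zmodHom (c : G) hc1) (fun u i => by
        have : F u ∈ Subgroup.centralizer (A : Set G) := hC ▸ Subgroup.mem_top _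
        exact (Subgroup.mem_centralizer_iff.1 this _ (A.pow_mem c.2 _)).symm)
      have b3 : 24 ∣ Nat.card Φ.range := hF.trans (Subgroup.card_dvd_of_le (by
        rintro _ ⟨u, rfl⟩
        exact ⟨(u, 1), by
          change F u * zmodHom (c : G) hc1 1 = F u
          rw [map_one, mul_one]⟩))
      have b4 : 5 ∣ Nat.card Φ.range := by
        have hm : (c : G) ∈ Φ.range := by
          refine ⟨(1, Multiplicative.ofAdd 1), ?_⟩
          change F 1 * zmodHom (c : G) hc1 (Multiplicative.ofAdd 1) = c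
          rw [map_one, one_mul]
          exact pow_one _
        have := Subgroup.orderOf_dvd_natCard _ hm
        rwa [hc5] at this
      refine ⟨(MulEquiv.ofBijective Φ (bijective_of_dvd_card_range Φ ?_ ?_)).symm⟩
      · rw [h4]
        exact Nat.Coprime.mul_dvd_of_dvd_of_dvd (by norm_num : Nat.Coprime 24 5) b3 b4
      · rw [h4, Nat.card_prod, card_SL23]
        simp
    · exact ⟨Or.inr (by simp [hV]), fun _ => Or.inl (index_two_of_quot T 33 (by norm_num)
        (by omega))⟩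

end Cfsg.Agent.S3361
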