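import Cfsg.Statements.S3370
import Cfsg.Agent.S3371

set_option autoImplicit false
open Cfsg

namespace Cfsg.Agent.S3370

open H5

theorem result (q : ℕ) [Fact q.Prime] {V : Type*} [AddCommGroup V] [Module (ZMod q) V] [Finite V] [Nontrivial V]
    {G : Type*} [Group G] [Finite G] [Nontrivial G] (p : ℕ) [Fact p.Prime] (hG : IsPGroup p G)
    (ρ : G →* (V ≃ₗ[ZMod q] V)) (hρ : Function.Injective ρ)
    (htrans : ∀ v w : V, v ≠ 0 → w ≠ 0 → ∃ g : G, ρ g v = w) :
    (q = 2 ∧ p = Nat.card V - 1 ∧ Nat.card G = p) ∨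
    (p = 2 ∧ Nat.card V = q ∧ (∃ m : ℕ, q = 2 ^ m + 1 ∧ Nat.card G = 2 ^ m) ∧ IsCyclic G) ∨
    (p = 2 ∧ q = 3 ∧ Nat.card V = 9 ∧
      ((IsCyclic G ∧ Nat.card G = 8) ∨ Nonempty (G ≃* QuaternionGroup 2) ∨ (Cfsg.IsQuasiDihedral G ∧ Nat.card G = 16))) := by
  have horb : ∀ v : V, v ≠ 0 → Nat.card {u : V | ∃ g : G, ρ g v = u} = Nat.card V - 1 := by
    intro v hv
    have e : {u : V | ∃ g : G, ρ g v = u} = Set.univ \ {0} := by
      ext u
      constructor
      · rintro ⟨g, rfl⟩
        exact ⟨trivial, by simpa using hv⟩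
      · rintro ⟨-, hu⟩
        exact htrans v u hv hu
    rw [e, Nat.card_coe_set_eq, Set.ncard_sdiff_singleton_of_mem (Set.mem_univ _), Set.ncard_univ]
  have hmain := S3371.result q p hG ρ hρ (fun v w hv hw => by rw [horb v hv, horb w hw])
  obtain ⟨v₀, hv₀⟩ := exists_ne (0 : V)
  have hind : ∀ v : V, v ≠ 0 → (vstab ρ v).index = Nat.card V - 1 := fun v hv => by
    rw [← card_orbit_eq_index, horb v hv]
  obtain ⟨k, hk⟩ := hG.index (vstab ρ v₀)
  rw [hind v₀ hv₀] at hk
  set d := Module.finrank (ZMod q) V with hd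
  have hd1 : 1 ≤ d := Module.finrank_pos
  have hV : Nat.card V = q ^ d := by
    rw [Module.natCard_eq_pow_finrank (K := ZMod q) (V := V), Nat.card_zmod]
  have hq2 := (Fact.out : q.Prime).two_le
  have hp2 := (Fact.out : p.Prime).two_le
  have hG1 : 1 < Nat.card G := Finite.one_lt_card
  have hp_of : q ≠ 2 → p = 2 := by
    intro hq
    have h1 : Odd (q ^ d) := ((Fact.out : q.Prime).odd_of_ne_two hq).pow
    have h2 : 2 ∣ p ^ k := by
      rw [← hk, hV]
      obtain ⟨c, hc⟩ := h1
      exact ⟨c, by omega⟩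
    exact ((Nat.prime_dvd_prime_iff_eq Nat.prime_two Fact.out).1
      (Nat.prime_two.dvd_of_dvd_pow h2)).symm
  rcases hmain with ⟨h1, h2⟩ | ⟨h1, m, h2, h3⟩ | ⟨h1, -, e, he⟩ | ⟨h1, h2, h3⟩
  · have hb : vstab ρ v₀ = ⊥ := eq_bot_iff.2 fun g hg => h2 v₀ hv₀ g hg
    have hGc : Nat.card G = Nat.card V - 1 := by rw [← hind v₀ hv₀, hb, Subgroup.index_bot]
    have hk0 : 1 ≤ k := by
      rcases k with _ | k
      · rw [pow_zero] at hk; omega
      · omega
    by_cases hq : q = 2
    · left
      subst hq
      have h3 : p ^ k + 1 = 2 ^ d := by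
        rw [← hk, hV, Nat.sub_add_cancel (Nat.one_le_pow _ _ (by norm_num))]
      have := pow_add_one_eq_two_pow hp2 hk0 h3
      subst this
      rw [pow_one] at hk
      exact ⟨rfl, hk.symm, hGc.trans hk⟩
    · right
      have hp := hp_of hq
      subst hp
      rcases pow_sub_one_eq_two_pow hq2 hd1 (hV ▸ hk) with h | ⟨h3, h4⟩
      · left
        rw [h, pow_one] at hV
        refine ⟨rfl, hV, ⟨k, by omega, hGc.trans hk⟩, ?_⟩
        refine isCyclic_of_injective (LinearEquiv.det.comp ρ) ?_
        rw [injective_iff_map_eq_one]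
        intro g hg
        obtain ⟨c, hc⟩ := (finrank_eq_one_iff_of_nonzero' v₀ hv₀).1 h (ρ g v₀)
        have h5 : (ρ g : V →ₗ[ZMod q] V) = c • LinearMap.id := by
          ext v
          obtain ⟨a, rfl⟩ := (finrank_eq_one_iff_of_nonzero' v₀ hv₀).1 h v
          simp [← hc, smul_comm a c]
        have h6 : LinearMap.det (ρ g : V →ₗ[ZMod q] V) = 1 := by
          rw [← LinearEquiv.coe_det]
          exact congrArg Units.val hg
        rw [h5, LinearMap.det_smul, ← hd, h] at h6
        simp only [pow_one, LinearMap.det_id, mul_one] at h6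
        apply h2 v₀ hv₀
        rw [← hc, h6, one_smul]
      · right
        rw [h4, h3] at hV
        refine ⟨rfl, h3, hV, ?_⟩
        rw [hV] at hGc
        rcases h1 with h1 | ⟨n, ⟨e⟩⟩
        · exact Or.inl ⟨h1, hGc⟩
        · right; left
          have hn : n ≠ 0 := by
            rintro rfl
            have : Finite (DihedralGroup 0) := Finite.of_equiv _
              (e.trans QuaternionGroup.quaternionGroupZeroEquivDihedralGroupZero).toEquiv
            exact not_finite (DihedralGroup 0)
          have : NeZero n := ⟨hn⟩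
          have h5 := Nat.card_congr e.toEquiv
          rw [hGc, Nat.card_eq_fintype_card, QuaternionGroup.card] at h5
          have : n = 2 := by omega
          subst this
          exact ⟨e⟩
  · have hq : q ≠ 2 := by
      rintro rfl
      rcases m with _ | _ | m
      · omega
      · omega
      · rw [pow_add, pow_add] at h2; omega
    have hp := hp_of hq
    subst hp
    have hq3 : q = 3 := by
      rcases pow_sub_one_eq_two_pow hq2 (d := 2) (by norm_num) (h1 ▸ hk) with h | h
      · omega
      · exact h.1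
    subst hq3
    have hm : m = 2 := by
      have : 2 ^ m = 2 ^ 2 := by omega
      exact Nat.pow_right_injective le_rfl this
    subst hm
    right; right
    refine ⟨rfl, rfl, h1, ?_⟩
    rcases h3 with ⟨⟨e⟩⟩ | h3
    · exfalso
      have h4 : Nat.card G = 8 := by rw [Nat.card_congr e.toEquiv, DihedralGroup.nat_card]; rfl
      obtain ⟨v, g, hv, hg, h⟩ := exists_fixed_of_pp ρ (p := 2) (y := e.symm (.sr 0))
        (z := e.symm (.r 2)) (Commute.map (by rw [commute_iff_eq]; decide) e.symm)
        (by rw [← map_pow, map_eq_one_iff _ e.symm.injective]; decide)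
        (by rw [← map_pow, map_eq_one_iff _ e.symm.injective]; decide)
        (by rw [Ne, map_eq_one_iff _ e.symm.injective]; decide) (by
          rintro ⟨k, hk⟩
          simp only [← map_zpow, EmbeddingLike.apply_eq_iff_eq, DihedralGroup.r_zpow] at hk
          cases hk)
      have h5 := (vstab ρ v).index_mul_card
      rw [hind v hv, h1, h4] at h5
      have h6 : Nat.card (vstab ρ v) = 1 := by omega
      rw [Subgroup.card_eq_one] at h6
      have : g ∈ vstab ρ v := h
      rw [h6] at this
      exact hg this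
    · exact Or.inr (Or.inr h3)
  · exfalso
    have h0 : (![1, 0] : Fin 2 → ZMod q) ≠ 0 := by
      intro h; simpa using congrFun h 0
    have h1 : (![1, 1] : Fin 2 → ZMod q) ≠ 0 := by
      intro h; simpa using congrFun h 0
    obtain ⟨g, hg⟩ := htrans (e.symm ![1, 0]) (e.symm ![1, 1]) (by simp)
      (by simp)
    obtain ⟨a, s, -, -, h | h⟩ := (he _).1 ⟨g, rfl⟩
    · have := congrFun (h ![1, 0]) 1
      simp [hg] at this
    · have := congrFun (h ![1, 0]) 0
      simp [hg] at this
  · exfalso
    subst h3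
    rw [h1] at hk
    have : 5 ∣ 2 ^ k := by rw [← hk]; norm_num
    have := Nat.Prime.dvd_of_dvd_pow (by norm_num) this
    omega

end Cfsg.Agent.S3370
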