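import Cfsg.Statements.S3375

set_option autoImplicit false
open Cfsg

namespace Cfsg.Agent.S3375

theorem aux {H : Type*} [Group H] [Finite H] (γ : MulAut H) (hγ : ∀ h, γ (γ h) = h)
    (hc : Nat.card {h : H // γ h = h} = 2) (M : Subgroup H) (hM : M.index = 2)
    (hinv : ∀ h, γ h ∈ M ↔ h ∈ M) : ∀ a ∈ M, γ a = a⁻¹ := by
  let C : Subgroup H :=
    { carrier := {h | γ h = h}
      mul_mem' := fun {a b} ha hb => by
        simp only [Set.mem_ofPred_eq] at *
        rw [map_mul, ha, hb]
      one_mem' := by simp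
      inv_mem' := fun {a} ha => by
        simp only [Set.mem_ofPred_eq] at *
        rw [map_inv, ha] }
  have hC : Nat.card C = 2 := hc
  have hmem : ∀ h : H, h * (γ h)⁻¹ ∈ M := by
    intro h
    rw [Subgroup.mul_mem_iff_of_index_two hM, Subgroup.inv_mem_iff, hinv]
  let f : H ⧸ C → M := Quotient.lift (fun h => (⟨h * (γ h)⁻¹, hmem h⟩ : M)) (by
    intro a b hab
    have h1 : a⁻¹ * b ∈ C := QuotientGroup.leftRel_apply.mp hab
    have h2 : γ (a⁻¹ * b) = a⁻¹ * b := h1
    rw [map_mul, map_inv] at h2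
    apply Subtype.ext
    show a * (γ a)⁻¹ = b * (γ b)⁻¹
    calc a * (γ a)⁻¹ = a * ((γ a)⁻¹ * γ b) * (γ b)⁻¹ := by group
      _ = b * (γ b)⁻¹ := by rw [h2]; group)
  have hf : Function.Injective f := by
    intro a b
    induction a using QuotientGroup.induction_on with | H a => ?_
    induction b using QuotientGroup.induction_on with | H b => ?_
    intro hab
    have h1 : a * (γ a)⁻¹ = b * (γ b)⁻¹ := congrArg Subtype.val hab
    rw [QuotientGroup.eq]
    show γ (a⁻¹ * b) = a⁻¹ * b
    rw [map_mul, map_inv]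
    calc (γ a)⁻¹ * γ b = a⁻¹ * (a * (γ a)⁻¹) * γ b := by group
      _ = a⁻¹ * b := by rw [h1]; group
  have hcard : Nat.card (H ⧸ C) = Nat.card M := by
    have h1 := C.card_mul_index
    have h2 := M.card_mul_index
    rw [hC] at h1
    rw [hM] at h2
    have : C.index = Nat.card (H ⧸ C) := rfl
    omega
  have hsurj : Function.Surjective f :=
    ((Nat.bijective_iff_injective_and_card f).mpr ⟨hf, hcard⟩).2
  intro a ha
  obtain ⟨x, hx⟩ := hsurj ⟨a, ha⟩
  induction x using QuotientGroup.induction_on with | H x => ?_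
  have h1 : x * (γ x)⁻¹ = a := congrArg Subtype.val hx
  rw [← h1, map_mul, map_inv, hγ]
  group

/-- Let γ be an automorphism of order 2 of a finite group H. (i) If γ fixes only the identity, then H is abelian and γ inverts every element. (ii) If γ has exactly two fixed points and H has a subgroup of index 2, then H has a γ-invariant abelian subgroup of index 2 on which γ acts by inversion. -/
theorem result {H : Type*} [Group H] [Finite H] (γ : MulAut H) (hγ : orderOf γ = 2) :
    ((∀ h : H, γ h = h → h = 1) → (∀ a b : H, a * b = b * a) ∧ ∀ h : H, γ h = h⁻¹) ∧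
    ((Nat.card {h : H // γ h = h} = 2 ∧ ∃ M : Subgroup H, M.index = 2) →
      ∃ A : Subgroup H, A.index = 2 ∧ IsMulCommutative A ∧ (∀ a ∈ A, γ a ∈ A) ∧ ∀ a ∈ A, γ a = a⁻¹) := by
  have hγ2 : ∀ h, γ (γ h) = h := by
    intro h
    have h1 := pow_orderOf_eq_one γ
    rw [hγ, pow_two] at h1
    rw [← MulAut.mul_apply, h1, MulAut.one_apply]
  refine ⟨fun h => ⟨fun a b => ?_, fun a => ?_⟩, ?_⟩
  · exact MonoidHom.FixedPointFree.commute_all_of_involutive (φ := γ) h hγ2 a b
  · exact congrFun (MonoidHom.FixedPointFree.coe_eq_inv_of_involutive (φ := γ) h hγ2) a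
  · rintro ⟨hc, M, hM⟩
    have key : ∃ A : Subgroup H, A.index = 2 ∧ ∀ h, γ h ∈ A ↔ h ∈ A := by
      by_cases hinv : ∀ h, γ h ∈ M ↔ h ∈ M
      · exact ⟨M, hM, hinv⟩
      · push Not at hinv
        obtain ⟨t, ht⟩ := hinv
        let A : Subgroup H :=
          { carrier := {h | γ h ∈ M ↔ h ∈ M}
            mul_mem' := fun {a b} ha hb => by
              simp only [Set.mem_ofPred_eq] at *
              rw [map_mul, Subgroup.mul_mem_iff_of_index_two hM,
                Subgroup.mul_mem_iff_of_index_two hM, ha, hb]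
            one_mem' := by simp
            inv_mem' := fun {a} ha => by
              simp only [Set.mem_ofPred_eq] at *
              rw [map_inv, Subgroup.inv_mem_iff, Subgroup.inv_mem_iff, ha] }
        have hA : ∀ h, h ∈ A ↔ (γ h ∈ M ↔ h ∈ M) := fun h => Iff.rfl
        refine ⟨A, ?_, fun h => ?_⟩
        · rw [Subgroup.index_eq_two_iff]
          refine ⟨t, fun b => ?_⟩
          rw [hA, hA, map_mul, Subgroup.mul_mem_iff_of_index_two hM,
            Subgroup.mul_mem_iff_of_index_two hM]
          unfold Xor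
          tauto
        · rw [hA, hA, hγ2]
          tauto
    obtain ⟨A, hA, hinv⟩ := key
    have h1 := aux γ hγ2 hc A hA hinv
    refine ⟨A, hA, ⟨⟨fun a b => Subtype.ext ?_⟩⟩, fun a ha => (hinv a).mpr ha, h1⟩
    have h2 := h1 _ (A.mul_mem a.2 b.2)
    rw [map_mul, h1 _ a.2, h1 _ b.2, ← mul_inv_rev, inv_inj] at h2
    exact h2.symm

end Cfsg.Agent.S3375
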