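import Cfsg.Statements.S3377
import Cfsg.Agent.H4.Small
-- import your own Cfsg.Agent.* helpers here

set_option autoImplicit false
open Cfsg

namespace Cfsg.Agent.S3377

/-- The alternating group of degree 5 has the presentation ⟨x, y | x³ = 1, y⁵ = 1, (xy)² = 1⟩: the group so presented is isomorphic to Alt(5). -/
theorem result :
    Nonempty (PresentedGroup ({FreeGroup.of (0 : Fin 2) ^ 3, FreeGroup.of (1 : Fin 2) ^ 5,
        (FreeGroup.of (0 : Fin 2) * FreeGroup.of 1) ^ 2} : Set (FreeGroup (Fin 2))) ≃* alternatingGroup (Fin 5)) := by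
  set R := ({FreeGroup.of (0 : Fin 2) ^ 3, FreeGroup.of (1 : Fin 2) ^ 5,
        (FreeGroup.of (0 : Fin 2) * FreeGroup.of 1) ^ 2} : Set (FreeGroup (Fin 2))) with hR
  have h1 : ∀ r ∈ R, FreeGroup.lift ![H4.Small.a3, H4.Small.a5] r = 1 := by
    rintro r (rfl | rfl | rfl)
    · simpa using H4.Small.a3_pow
    · simpa using H4.Small.a5_pow
    · simpa using H4.Small.a35_pow
  have h2 : ∀ r ∈ R, PresentedGroup.mk R r = 1 := fun r hr => PresentedGroup.one_of_mem hr
  obtain ⟨φ, e1, e2⟩ := H4.Small.exists_hom_alt5 (x := (PresentedGroup.of 0 : PresentedGroup R))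
    (y := PresentedGroup.of 1) (h2 _ (by simp [hR])) (h2 _ (by simp [hR])) (h2 _ (by simp [hR]))
  refine ⟨MonoidHom.toMulEquiv (PresentedGroup.toGroup h1) φ ?_ ?_⟩
  · apply PresentedGroup.ext
    intro i
    fin_cases i <;> simp [e1, e2]
  · refine MonoidHom.eq_of_eqOn_dense H4.Small.closure_a35 ?_
    rintro x (rfl | rfl) <;> simp [e1, e2]

end Cfsg.Agent.S3377
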