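import Cfsg.Statements.S3378
import Cfsg.Agent.H4.Small
import Cfsg.Agent.H3.GroupUtil
-- import your own Cfsg.Agent.* helpers here

set_option autoImplicit false
open Cfsg

namespace Cfsg.Agent.S3378

open H4.Small

theorem quat_unique : ∀ a b : QuaternionGroup 2, a ≠ 1 → b ≠ 1 → a * a = 1 → b * b = 1 → a = b := by
  decide

theorem quat_pow : ∀ a : QuaternionGroup 2, a ≠ 1 →
    a = QuaternionGroup.a 2 ∨ a * a = QuaternionGroup.a 2 := by
  decide

theorem dvd120 : ∀ k < 121, k ∣ 120 → ¬ 60 ∣ k →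
    k ∣ 2 ^ 3 * 3 ^ 1 ∨ k ∣ 2 ^ 3 * 5 ^ 1 ∨ k ∣ 30 := by decide +kernel

theorem part_one (G : Type*) [Group G] [Finite G] (hG : Nat.card G = 120)
    (hs : ¬ Group.IsSolvable G) (hQ : ∀ P : Sylow 2 G, Nonempty ((P : Subgroup G) ≃* QuaternionGroup 2)) :
    Nonempty (G ≃* SL25) := by
  classical
  -- commuting involutions coincide
  have hinv : ∀ t z : G, t ≠ 1 → z ≠ 1 → t * t = 1 → z * z = 1 → t * z = z * t → t = z := by
    intro t z ht hz ht2 hz2 hc
    have h1 : IsPGroup 2 (Subgroup.closure ({t, z} : Set G)) := by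
      intro g
      refine ⟨1, Subtype.ext ?_⟩
      obtain ⟨g, hg⟩ := g
      have : (g * g = 1 ∧ g * t = t * g ∧ g * z = z * g) := by
        induction hg using Subgroup.closure_induction'' with
        | mem x hx => rcases hx with rfl | rfl <;> simp [*]
        | inv_mem x hx =>
          rcases hx with rfl | rfl
          · rw [inv_eq_of_mul_eq_one_right ht2]; simp [*]
          · rw [inv_eq_of_mul_eq_one_right hz2]; simp [*]
        | one => simp
        | mul x y hx hy ihx ihy =>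
          have hxy : x * y = y * x := by
            have : Subgroup.closure ({t, z} : Set G) ≤ Subgroup.centralizer {x} := by
              rw [Subgroup.closure_le]
              rintro _ (rfl | rfl)
              · exact Subgroup.mem_centralizer_singleton_iff.mpr ihx.2.1.symm
              · exact Subgroup.mem_centralizer_singleton_iff.mpr ihx.2.2.symm
            exact (Subgroup.mem_centralizer_singleton_iff.mp (this hy)).symm
          refine ⟨?_, ?_, ?_⟩
          · calc x * y * (x * y) = x * (y * x) * y := by group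
              _ = x * x * (y * y) := by rw [← hxy]; group
              _ = 1 := by rw [ihx.1, ihy.1, one_mul]
          · rw [mul_assoc, ihy.2.1, ← mul_assoc, ihx.2.1, mul_assoc]
          · rw [mul_assoc, ihy.2.2, ← mul_assoc, ihx.2.2, mul_assoc]
      simpa [pow_two] using this.1
    obtain ⟨P, hP⟩ := h1.exists_le_sylow
    obtain ⟨e⟩ := hQ P
    have ht' : t ∈ (P : Subgroup G) := hP (Subgroup.subset_closure (by simp))
    have hz' : z ∈ (P : Subgroup G) := hP (Subgroup.subset_closure (by simp))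
    have := quat_unique (e ⟨t, ht'⟩) (e ⟨z, hz'⟩)
      (fun h => ht (congrArg Subtype.val (e.map_eq_one_iff.mp h)))
      (fun h => hz (congrArg Subtype.val (e.map_eq_one_iff.mp h)))
      (by rw [← map_mul, e.map_eq_one_iff]; exact Subtype.ext ht2)
      (by rw [← map_mul, e.map_eq_one_iff]; exact Subtype.ext hz2)
    exact congrArg Subtype.val (e.injective this)
  -- the action on the Sylow `5`-subgroups
  obtain ⟨S⟩ : Nonempty (Sylow 5 G) := inferInstance
  have hS : Nat.card S = 5 := by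
    rw [S.card_eq_multiplicity, hG]
    have : Nat.factorization 120 5 = 1 := by decide +kernel
    rw [this]; norm_num
  have hSi : (S : Subgroup G).index = 24 := by
    have := (S : Subgroup G).index_mul_card
    rw [hS, hG] at this; omega
  have hn5 : Nat.card (Sylow 5 G) ≤ 6 := by
    have h1 := S.card_dvd_index
    have h2 := card_sylow_modEq_one 5 G
    rw [hSi] at h1
    have hle := Nat.le_of_dvd (by norm_num) h1
    unfold Nat.ModEq at h2
    generalize Nat.card (Sylow 5 G) = k at h1 h2 hle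
    interval_cases k <;> simp_all
  set K := (MulAction.toPermHom G (Sylow 5 G)).ker with hK
  obtain ⟨P⟩ : Nonempty (Sylow 2 G) := inferInstance
  obtain ⟨e⟩ := hQ P
  set z : G := (e.symm (QuaternionGroup.a 2) : G) with hz
  have hz1 : z ≠ 1 := fun h => by
    have : e.symm (QuaternionGroup.a 2) = 1 := Subtype.ext h
    exact absurd (e.symm.map_eq_one_iff.mp this) (by decide)
  have hz2 : z * z = 1 := by
    rw [hz, ← Subgroup.coe_mul, ← map_mul,
      show (QuaternionGroup.a 2 * QuaternionGroup.a 2 : QuaternionGroup 2) = 1 by decide]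
    simp
  have hzK : z ∈ K := by
    rw [hK, MonoidHom.mem_ker]
    ext1 T
    have h8 : Nat.card (P : Subgroup G) = 8 := by
      rw [Nat.card_congr e.toEquiv, Nat.card_eq_fintype_card, QuaternionGroup.card]
    have h2 : MulAction.stabilizer (P : Subgroup G) T ≠ ⊥ := by
      intro h
      have h3 := MulAction.index_stabilizer (P : Subgroup G) T
      rw [h, Subgroup.index_bot, h8] at h3
      have h4 := Set.ncard_le_card (MulAction.orbit (P : Subgroup G) T)
      omega
    obtain ⟨a, ha, ha1⟩ := (Subgroup.bot_or_exists_ne_one _).resolve_left h2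
    have h5 : e.symm (QuaternionGroup.a 2) ∈ MulAction.stabilizer (P : Subgroup G) T := by
      rcases quat_pow (e a) (fun h => ha1 (e.map_eq_one_iff.mp h)) with h | h
      · rw [← h]; simpa using ha
      · rw [← h, ← map_mul]; simpa using Subgroup.mul_mem _ ha ha
    exact h5
  have hsolv : ∀ (H : Type _) [Group H] [Finite H], Nat.card H ∣ 120 → ¬ 60 ∣ Nat.card H →
      Group.IsSolvable H := by
    intro H _ _ h1 h2
    have h3 := dvd120 _ (Nat.lt_succ_of_le (Nat.le_of_dvd (by norm_num) h1)) h1 h2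
    rcases h3 with h3 | h3 | h3
    · exact H3.isSolvable_of_card_dvd_prime_pow_mul Nat.prime_two Nat.prime_three h3
    · exact H3.isSolvable_of_card_dvd_prime_pow_mul Nat.prime_two Nat.prime_five h3
    · exact isSolvable_of_card_dvd_60 (h3.trans (by norm_num)) fun h => h2 (by rw [h])
  have hK5 : ¬ 5 ∣ Nat.card K := by
    intro h5
    have h1 : (S : Subgroup G) ≤ K := by
      refine H3.le_of_coprime_card_index ?_
      have h2 := K.index_mul_card
      obtain ⟨c, hc⟩ := h5
      rw [hG, hc] at h2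
      rw [hS, Nat.Prime.coprime_iff_not_dvd Nat.prime_five]
      rintro ⟨d, hd⟩
      rw [hd] at h2
      have : 25 ∣ 120 := ⟨d * c, by rw [← h2]; ring⟩
      omega
    have h2 : ∀ T : Sylow 5 G, T = S := by
      intro T
      have h3 : (S : Subgroup G) ≤ Subgroup.normalizer (T : Set G) := fun g hg => by
        have h4 : g • T = T := congrArg (fun σ : Equiv.Perm (Sylow 5 G) => σ T) (h1 hg)
        exact Sylow.smul_eq_iff_mem_normalizer.mp h4
      have h4 := (IsPGroup.to_sup_of_normal_right' S.2 T.2 h3)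
      have h5 := T.is_maximal' h4 le_sup_right
      have h6 := S.is_maximal' h4 le_sup_left
      exact Sylow.ext (h5.symm.trans h6)
    have : Subsingleton (Sylow 5 G) := ⟨fun a b => (h2 a).trans (h2 b).symm⟩
    have : (S : Subgroup G).Normal := Sylow.normal_of_subsingleton S
    refine hs (isSolvable_of_normal (S : Subgroup G) (hsolv _ (by rw [hS]; norm_num)
      (by rw [hS]; norm_num)) (hsolv _ ?_ ?_))
    · rw [← Subgroup.index, hSi]; norm_num
    · rw [← Subgroup.index, hSi]; norm_num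
  have hKs : Group.IsSolvable K := hsolv _ (hG ▸ K.card_subgroup_dvd_card)
    fun h => hK5 (Dvd.dvd.trans (by norm_num) h)
  have hq : ¬ Group.IsSolvable (G ⧸ K) := fun h => hs (isSolvable_of_normal K hKs h)
  have hq60 : 60 ∣ Nat.card (G ⧸ K) := by
    by_contra h
    exact hq (hsolv _ (hG ▸ K.card_quotient_dvd_card) h)
  have hK2 : 2 ∣ Nat.card K := by
    have := K.orderOf_dvd_natCard hzK
    rwa [orderOf_eq_prime (p := 2) (by rw [pow_two, hz2]) hz1] at this
  have hcard := K.card_eq_card_quotient_mul_card_subgroup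
  obtain ⟨c, hc⟩ := hq60
  obtain ⟨d, hd⟩ := hK2
  rw [hG, hc, hd] at hcard
  have hcd : c * d = 1 := by nlinarith
  rw [Nat.eq_one_of_mul_eq_one_right hcd] at hc
  rw [Nat.eq_one_of_mul_eq_one_left hcd] at hd
  have hKz : ∀ g ∈ K, g = 1 ∨ g = z := by
    intro g hg
    by_contra h
    rw [not_or] at h
    have h1 : ({1, z, g} : Finset G).card ≤ Nat.card K := by
      rw [← SetLike.coe_sort_coe, Nat.card_coe_set_eq, ← Set.ncard_coe_finset]
      refine Set.ncard_le_ncard ?_
      intro x hx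
      simp only [Finset.coe_insert, Finset.coe_singleton, Set.mem_insert_iff,
        Set.mem_singleton_iff] at hx
      rcases hx with rfl | rfl | rfl
      exacts [K.one_mem, hzK, hg]
    rw [Finset.card_eq_three.mpr ⟨1, z, g, hz1.symm, Ne.symm h.1, Ne.symm h.2, rfl⟩] at h1
    omega
  have hzc : ∀ g, z * g = g * z := by
    intro g
    rcases hKz _ ((MonoidHom.normal_ker _).conj_mem z hzK g) with h | h
    · exact absurd (by simpa using h) hz1
    · exact (mul_inv_eq_iff_eq_mul.mp h).symm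
  have hsq : ∀ g ∈ K, g ^ 2 = 1 := fun g hg => by
    rcases hKz g hg with rfl | rfl
    · simp
    · rw [pow_two, hz2]
  obtain ⟨f⟩ := alt5_of_not_isSolvable hc hq
  let π : G →* alternatingGroup (Fin 5) := f.toMonoidHom.comp (QuotientGroup.mk' K)
  have hπ : Function.Surjective π := f.surjective.comp (QuotientGroup.mk'_surjective K)
  have hker : ∀ g, π g = 1 ↔ g ∈ K := fun g =>
    f.map_eq_one_iff.trans (QuotientGroup.eq_one_iff g)
  obtain ⟨x0, hx0⟩ := hπ a3
  obtain ⟨y0, hy0⟩ := hπ a5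
  have hx : π (x0 ^ 4) = a3 := by rw [map_pow, hx0, pow_succ, a3_pow, one_mul]
  have hy : π (y0 ^ 6) = a5 := by rw [map_pow, hy0, pow_succ, a5_pow, one_mul]
  have hx3 : (x0 ^ 4) ^ 3 = 1 := by
    have := hsq (x0 ^ 3) ((hker _).mp (by rw [map_pow, hx0, a3_pow]))
    calc (x0 ^ 4) ^ 3 = ((x0 ^ 3) ^ 2) ^ 2 := by group
      _ = 1 := by rw [this, one_pow]
  have hy5 : (y0 ^ 6) ^ 5 = 1 := by
    have := hsq (y0 ^ 5) ((hker _).mp (by rw [map_pow, hy0, a5_pow]))
    calc (y0 ^ 6) ^ 5 = ((y0 ^ 5) ^ 2) ^ 3 := by group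
      _ = 1 := by rw [this, one_pow]
  generalize x0 ^ 4 = x at hx hx3
  generalize y0 ^ 6 = y at hy hy5
  have hxy : (x * y) ^ 2 = z := by
    refine (hKz _ ((hker _).mp (by rw [map_pow, map_mul, hx, hy, a35_pow]))).resolve_left fun h => ?_
    have h1 : x * y ∉ K := fun h => a35_ne (by rw [← hx, ← hy, ← map_mul, (hker _).mpr h])
    refine h1 (hinv (x * y) z (fun h => h1 (h ▸ K.one_mem)) hz1 (by rw [← pow_two, h]) hz2
      (hzc _).symm ▸ hzK)
  obtain ⟨φ, e1, e2, e3⟩ := exists_hom_sl25 hx3 hy5 (by rw [pow_two, hz2]) (hzc x) (hzc y) hxy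
  have hsurj : Function.Surjective φ := by
    intro g
    have h1 : (φ.range.map π) = ⊤ := by
      rw [eq_top_iff, ← closure_a35, Subgroup.closure_le]
      rintro _ (rfl | rfl)
      · exact ⟨x, ⟨sx, e1⟩, hx⟩
      · exact ⟨y, ⟨sy, e2⟩, hy⟩
    obtain ⟨_, ⟨a, rfl⟩, ha⟩ : π g ∈ φ.range.map π := h1 ▸ Subgroup.mem_top _
    rcases hKz ((φ a)⁻¹ * g) ((hker _).mp (by rw [map_mul, map_inv, ha, inv_mul_cancel])) with
      h | h
    · exact ⟨a, inv_mul_eq_one.mp h⟩
    · exact ⟨a * sz, by rw [map_mul, e3, ← h, mul_inv_cancel_left]⟩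
  exact ⟨(MulEquiv.ofBijective φ (hsurj.bijective_of_nat_card_le (by rw [hG, card_sl25]))).symm⟩

/-- Every non-solvable group of order 120 whose Sylow 2-subgroups are quaternion of order 8 is isomorphic to SL(2,5), and SL(2,5) has the presentation ⟨x, y, z | x³ = y⁵ = z² = 1, z⁻¹xz = x, z⁻¹yz = y, (xy)² = z⟩. -/
theorem result :
    (∀ (G : Type*) [Group G] [Finite G], Nat.card G = 120 → ¬ Group.IsSolvable G →
      (∀ P : Sylow 2 G, Nonempty ((P : Subgroup G) ≃* QuaternionGroup 2)) →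
      Nonempty (G ≃* Matrix.SpecialLinearGroup (Fin 2) (ZMod 5))) ∧
    Nonempty (PresentedGroup ({FreeGroup.of (0 : Fin 3) ^ 3, FreeGroup.of (1 : Fin 3) ^ 5, FreeGroup.of (2 : Fin 3) ^ 2,
        (FreeGroup.of (2 : Fin 3))⁻¹ * FreeGroup.of 0 * FreeGroup.of 2 * (FreeGroup.of (0 : Fin 3))⁻¹,
        (FreeGroup.of (2 : Fin 3))⁻¹ * FreeGroup.of 1 * FreeGroup.of 2 * (FreeGroup.of (1 : Fin 3))⁻¹,
        (FreeGroup.of (0 : Fin 3) * FreeGroup.of 1) ^ 2 * (FreeGroup.of (2 : Fin 3))⁻¹} : Set (FreeGroup (Fin 3)))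
      ≃* Matrix.SpecialLinearGroup (Fin 2) (ZMod 5)) := by
  refine ⟨part_one, ?_⟩
  set R := ({FreeGroup.of (0 : Fin 3) ^ 3, FreeGroup.of (1 : Fin 3) ^ 5, FreeGroup.of (2 : Fin 3) ^ 2,
        (FreeGroup.of (2 : Fin 3))⁻¹ * FreeGroup.of 0 * FreeGroup.of 2 * (FreeGroup.of (0 : Fin 3))⁻¹,
        (FreeGroup.of (2 : Fin 3))⁻¹ * FreeGroup.of 1 * FreeGroup.of 2 * (FreeGroup.of (1 : Fin 3))⁻¹,
        (FreeGroup.of (0 : Fin 3) * FreeGroup.of 1) ^ 2 * (FreeGroup.of (2 : Fin 3))⁻¹} :
      Set (FreeGroup (Fin 3))) with hR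
  have key : ∀ {G : Type} [Group G] (x z : G), z⁻¹ * x * z * x⁻¹ = 1 ↔ z * x = x * z := by
    intro G _ x z
    rw [mul_inv_eq_one, mul_assoc, inv_mul_eq_iff_eq_mul, eq_comm]
  have h1 : ∀ r ∈ R, FreeGroup.lift ![sx, sy, sz] r = 1 := by
    rintro r (rfl | rfl | rfl | rfl | rfl | rfl)
    · simpa using sx_pow
    · simpa using sy_pow
    · simpa using sz_pow
    · simpa using (key _ _).mpr szx
    · simpa using (key _ _).mpr szy
    · simpa [mul_inv_eq_one] using sxy
  have h2 : ∀ r ∈ R, PresentedGroup.mk R r = 1 := fun r hr => PresentedGroup.one_of_mem hr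
  obtain ⟨φ, e1, e2, e3⟩ := exists_hom_sl25 (x := (PresentedGroup.of 0 : PresentedGroup R))
    (y := PresentedGroup.of 1) (z := PresentedGroup.of 2) (h2 _ (by simp [hR]))
    (h2 _ (by simp [hR])) (h2 _ (by simp [hR]))
    ((key _ _).mp (h2 ((FreeGroup.of (2 : Fin 3))⁻¹ * FreeGroup.of 0 * FreeGroup.of 2 *
      (FreeGroup.of (0 : Fin 3))⁻¹) (by simp [hR])))
    ((key _ _).mp (h2 ((FreeGroup.of (2 : Fin 3))⁻¹ * FreeGroup.of 1 * FreeGroup.of 2 *
      (FreeGroup.of (1 : Fin 3))⁻¹) (by simp [hR])))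
    (mul_inv_eq_one.mp (h2 ((FreeGroup.of (0 : Fin 3) * FreeGroup.of 1) ^ 2 *
      (FreeGroup.of (2 : Fin 3))⁻¹) (by simp [hR])))
  refine ⟨MonoidHom.toMulEquiv (PresentedGroup.toGroup h1) φ ?_ ?_⟩
  · apply PresentedGroup.ext
    intro i
    fin_cases i <;> simp [e1, e2, e3]
  · refine MonoidHom.eq_of_eqOn_dense closure_sxy ?_
    rintro x (rfl | rfl | rfl) <;> simp [e1, e2, e3]

end Cfsg.Agent.S3378
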