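import Cfsg.Statements.S3380
import Cfsg.Agent.H5.LinearPP
import Cfsg.Agent.H5.DihedralIso

set_option autoImplicit false
open Cfsg

namespace Cfsg.Agent.S3380

theorem result
    (q : ℕ) [Fact q.Prime] {V : Type*} [AddCommGroup V] [Module (ZMod q) V] [Finite V] [Nontrivial V]
    {G : Type*} [Group G] [Finite G] (p : ℕ) [Fact p.Prime] (hG : IsPGroup p G)
    (ρ : G →* (V ≃ₗ[ZMod q] V)) (hρ : Function.Injective ρ)
    (hirr : ∀ W : Submodule (ZMod q) V, (∀ g : G, ∀ w ∈ W, ρ g w ∈ W) → W = ⊥ ∨ W = ⊤)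
    (hnc : ¬ IsCyclic G) (hnq : ∀ n : ℕ, ¬ Nonempty (G ≃* QuaternionGroup n))
    (hnd : ∀ n : ℕ, ¬ Nonempty (G ≃* DihedralGroup n)) (hnsd : ¬ Cfsg.IsQuasiDihedral G) :
    ∃ (H : Subgroup G) (W : Fin p → Submodule (ZMod q) V), H.index = p ∧
      iSup W = ⊤ ∧ iSupIndep W ∧
      (∀ h ∈ H, ∀ i, ∀ w ∈ W i, ρ h w ∈ W i) ∧
      (∀ i, ∃ h ∈ H, h ≠ 1 ∧ ∀ w ∈ W i, ρ h w = w) ∧
      ∀ g : G, g ∉ H → ∃ σ : Equiv.Perm (Fin p), orderOf σ = p ∧ ∀ i, (W i).map (ρ g : V →ₗ[ZMod q] V) = W (σ i) := by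
  have hPP : H5.HasNormalPP p G := by
    by_contra h
    rcases H5.cyclic_or_quaternion_or_dihedral_or_semidihedral hG h with
      h | ⟨-, ⟨n, h⟩ | ⟨n, h⟩ | h⟩
    · exact hnc h
    · exact hnq _ h
    · exact hnd _ h
    · exact hnsd h
  obtain ⟨H, W, h1, h2, h3, h4, h5⟩ := H5.exists_blocks ρ hρ hirr hPP
  refine ⟨H, W, h1, h2, h3, ?_, ?_, ?_⟩
  · intro h hh i w hw
    obtain ⟨c, hc, hW⟩ := h5 h
    have := hW i
    rw [hc.1 hh, add_zero] at this
    rw [← this]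
    exact ⟨w, hw, rfl⟩
  · intro i
    obtain ⟨h, hh, hh1, e⟩ := h4 i
    exact ⟨h, hh, hh1, fun w hw => by rwa [e] at hw⟩
  · intro g hg
    obtain ⟨c, hc, hW⟩ := h5 g
    refine ⟨Equiv.addRight c, orderOf_eq_prime ?_ ?_, hW⟩
    · have h0 : p • c = 0 := by
        have := card_nsmul_eq_zero (x := c)
        rwa [Fintype.card_fin] at this
      have h1 : ∀ (n : ℕ) (i : Fin p), (Equiv.addRight c ^ n) i = i + n • c := by
        intro n
        induction n with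
        | zero => simp
        | succ n ih =>
          intro i
          rw [pow_succ', Equiv.Perm.mul_apply, ih, succ_nsmul, ← add_assoc]
          rfl
      refine Equiv.ext fun i => ?_
      rw [h1, h0, add_zero]
      rfl
    · intro h
      apply hg
      rw [hc]
      simpa using congrArg (fun σ : Equiv.Perm (Fin p) => σ 0) h

end Cfsg.Agent.S3380
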