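import Cfsg.Statements.S3383
import Cfsg.Agent.H3.Frobenius

set_option autoImplicit false
open Cfsg

namespace Cfsg.Agent.S3383

/-- Let H be a Frobenius complement in a finite group L and K the Frobenius kernel (as a subgroup). Then K is characteristic in L, and every normal subgroup of L either contains K or is contained in K. -/
theorem result {L : Type*} [Group L] [Finite L]
    (H : Subgroup L) (hH : Cfsg.IsFrobeniusComplement H)
    (K : Subgroup L) (hK : (K : Set L) = Cfsg.frobeniusKernel H) :
    K.Characteristic ∧ ∀ N : Subgroup L, N.Normal → K ≤ N ∨ N ≤ K := by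
  have hH' := ((H3.isFrobeniusComplement_iff H).mp hH).2.2
  have hN := H3.frobKer_normal hK
  refine ⟨?_, H3.frobKer_le_or_le hH' hK⟩
  rw [Subgroup.characteristic_iff_map_eq]
  intro φ
  have h1 : (K.map φ.toMonoidHom).Normal := hN.map _ φ.surjective
  have h2 : Nat.card (K.map φ.toMonoidHom) = Nat.card K :=
    Subgroup.card_map_of_injective φ.injective
  rcases H3.frobKer_le_or_le hH' hK _ h1 with h | h
  · exact (Subgroup.eq_of_le_of_card_ge h h2.le).symm
  · exact Subgroup.eq_of_le_of_card_ge h h2.ge

end Cfsg.Agent.S3383
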