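import Cfsg.Statements.S3419
import Cfsg.Agent.H9.SimpleSection

set_option autoImplicit false
open Cfsg

namespace Cfsg.Agent.S3419

/-- Let n ≥ 5 and let G be a finite group with the same order and the same set of element orders as the alternating group of degree n. Then G is not solvable. -/
theorem result {G : Type*} [Group G] [Finite G] (n : ℕ) (hn : 5 ≤ n)
    (hcard : Nat.card G = Nat.card ↥(alternatingGroup (Fin n)))
    (hspec : Set.range (orderOf : G → ℕ) = Set.range (orderOf : ↥(alternatingGroup (Fin n)) → ℕ)) :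
    ¬ Group.IsSolvable G := by
  intro hG
  have h2 := H9.two_mul_card_alternating_fin (n := n) (by omega)
  rw [← hcard] at h2
  have hdvd : ∀ p : ℕ, p.Prime → 2 < p → p ≤ n → p ∣ Nat.card G := by
    intro p hp h1 h3
    have h4 : p ∣ 2 * Nat.card G := h2 ▸ hp.dvd_factorial.mpr h3
    refine (hp.dvd_mul.mp h4).resolve_left fun h => ?_
    have := Nat.le_of_dvd two_pos h
    omega
  have hpow : ∀ p a b : ℕ, p ^ a ∣ Nat.card G → ¬ p ^ b ∣ n.factorial → a < b := by
    intro p a b h1 h3
    by_contra h
    exact h3 ((pow_dvd_pow p (not_lt.mp h)).trans (h2 ▸ h1.mul_left 2))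
  have main : ∀ p q : ℕ, p.Prime → q.Prime → p ≠ q → 2 < p → 2 < q → p ≤ n → q ≤ n → n < p + q →
      (∃ a, 1 ≤ a ∧ p ^ a ∣ Nat.card G ∧ q ∣ p ^ a - 1) ∨
      (∃ a, 1 ≤ a ∧ q ^ a ∣ Nat.card G ∧ p ∣ q ^ a - 1) := fun p q hp hq hpq h1 h2 h3 h4 h5 =>
    H9.solvable_two_primes hG hp hq hpq (hdvd p hp h1 h3) (hdvd q hq h2 h4)
      (H9.alternating_spectrum_not_adj hspec hp hq hpq h5)
  by_cases h11 : 11 ≤ n
  · obtain ⟨p, q, hp, hq, hpq, h3, h4, h5, h6⟩ := H9.exists_two_primes_half_lt n h11
    have hpo := hp.eq_two_or_odd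
    have hqo := hq.eq_two_or_odd
    rcases main p q hp hq hpq (by omega) (by omega) h4 h6 (by omega) with
      ⟨a, ha, hb, c, hc⟩ | ⟨a, ha, hb, c, hc⟩
    · have := hpow p a 2 hb (H9.not_sq_dvd_factorial hp h3)
      obtain rfl : a = 1 := by omega
      rw [pow_one] at hc
      have hc2 : c < 2 := by
        by_contra h
        have := Nat.mul_le_mul_left q (not_lt.mp h)
        omega
      interval_cases c <;> omega
    · have := hpow q a 2 hb (H9.not_sq_dvd_factorial hq h5)
      obtain rfl : a = 1 := by omega
      rw [pow_one] at hc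
      have hc2 : c < 2 := by
        by_contra h
        have := Nat.mul_le_mul_left p (not_lt.mp h)
        omega
      interval_cases c <;> omega
  · by_cases h7 : 7 ≤ n
    · rcases main 5 7 (by norm_num) (by norm_num) (by norm_num) (by norm_num) (by norm_num)
        (by omega) h7 (by omega) with ⟨a, ha, hb, hc⟩ | ⟨a, ha, hb, hc⟩
      · have := hpow 5 a 3 hb (by
          have : n ≤ 10 := by omega
          interval_cases n <;> decide)
        interval_cases a <;> norm_num at hc
      · have := hpow 7 a 2 hb (H9.not_sq_dvd_factorial (by norm_num) (by omega))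
        interval_cases a
        norm_num at hc
    · rcases main 3 5 (by norm_num) (by norm_num) (by norm_num) (by norm_num) (by norm_num)
        (by omega) hn (by omega) with ⟨a, ha, hb, hc⟩ | ⟨a, ha, hb, hc⟩
      · have := hpow 3 a 3 hb (by
          have : n ≤ 6 := by omega
          interval_cases n <;> decide)
        interval_cases a <;> norm_num at hc
      · have := hpow 5 a 2 hb (H9.not_sq_dvd_factorial (by norm_num) (by omega))
        interval_cases a
        norm_num at hc

end Cfsg.Agent.S3419
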