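import Cfsg.Statements.S3420
import Cfsg.Agent.H9.SimpleSection

set_option autoImplicit false
open Cfsg

namespace Cfsg.Agent.S3420

/-- Let n ≥ 11 and let G be a finite group with the same order and the same set of element orders as the alternating group of degree n. Then G has normal subgroups N < H such that H/N is a non-abelian simple group whose order is divisible by every prime p with n/2 < p ≤ n. -/
theorem result {G : Type*} [Group G] [Finite G] (n : ℕ) (hn : 11 ≤ n)
    (hcard : Nat.card G = Nat.card ↥(alternatingGroup (Fin n)))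
    (hspec : Set.range (orderOf : G → ℕ) = Set.range (orderOf : ↥(alternatingGroup (Fin n)) → ℕ)) :
    ∃ (N H : Subgroup G) (_ : N.Normal), H.Normal ∧ N < H ∧
      IsSimpleGroup (↥H ⧸ N.subgroupOf H) ∧ ¬ IsMulCommutative (↥H ⧸ N.subgroupOf H) ∧
      ∀ p : ℕ, p.Prime → n < 2 * p → p ≤ n → p ∣ Nat.card (↥H ⧸ N.subgroupOf H) := by
  have h2 := H9.two_mul_card_alternating_fin (n := n) (by omega)
  rw [← hcard] at h2
  obtain ⟨p₀, q₀, hp, hq, hpq, h3, h4, h5, h6⟩ := H9.exists_two_primes_half_lt n hn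
  obtain ⟨N, H, hN, hH, hlt, hs, hc, hall⟩ := H9.exists_simple_section_of_primes (G := G)
    (fun p => p.Prime ∧ n < 2 * p ∧ p ≤ n) (by
      rintro p ⟨hp, h1, h3⟩
      refine ⟨hp, ?_, fun h => H9.not_sq_dvd_factorial hp h1 (h2 ▸ h.mul_left 2)⟩
      have h4 : p ∣ 2 * Nat.card G := h2 ▸ hp.dvd_factorial.mpr h3
      refine (hp.dvd_mul.mp h4).resolve_left fun h => ?_
      have := Nat.le_of_dvd two_pos h
      omega) (by
      rintro p q ⟨hp, h1, h3⟩ ⟨hq, h4, h5⟩ hpq
      refine ⟨H9.alternating_spectrum_not_adj hspec hp hq hpq (by omega), ?_⟩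
      rintro ⟨c, hc⟩
      have hc2 : c < 2 := by
        by_contra h
        have := Nat.mul_le_mul_left q (not_lt.mp h)
        omega
      have hpo := hp.eq_two_or_odd
      have hqo := hq.eq_two_or_odd
      interval_cases c <;> omega) ⟨hp, h3, h4⟩ ⟨hq, h5, h6⟩ hpq
  exact ⟨N, H, hN, hH, hlt, hs, hc, fun p h1 h2 h3 => hall p ⟨h1, h2, h3⟩⟩

end Cfsg.Agent.S3420
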