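import Cfsg.Statements.S3427
import Cfsg.Agent.H9.G2Gen2
import Cfsg.Agent.H9.G2Model

set_option autoImplicit false
open Cfsg

namespace Cfsg.Agent.S3427

/-- Let F be the field with 2 elements and let M be the Chevalley group of type G₂ over F (a non-simple group of order 12096 whose derived subgroup, of index 2, is isomorphic to PSU(3, 3)). A finite group G is isomorphic to M if and only if G has the same set of element orders and the same order as M. -/
theorem result {G : Type*} [Group G] [Finite G] {F : Type*} [Field F] [Fintype F] (hF : Fintype.card F = 2) :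
    Nonempty (G ≃* ↥(Cfsg.Lie.chevG2.group F)) ↔
      (Set.range (orderOf : G → ℕ) = Set.range (orderOf : ↥(Cfsg.Lie.chevG2.group F) → ℕ) ∧ Nat.card G = Nat.card ↥(Cfsg.Lie.chevG2.group F)) := by
  obtain ⟨e⟩ := H2.chevGroup_congr Lie.chevG2
    (FiniteField.ringEquivOfCardEq (K := F) (K' := ZMod 2) (by simp [hF]))
  have hM : G22.Hyp (Lie.chevG2.group F) :=
    ⟨(Nat.card_congr e.toEquiv).trans G22.Model.main.1, fun g => by
      simpa only [← map_pow, map_eq_one_iff e e.injective] using G22.Model.main.2 (e g)⟩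
  refine ⟨fun ⟨f⟩ => ⟨?_, Nat.card_congr f.toEquiv⟩, fun ⟨h1, h2⟩ => ?_⟩
  · ext n
    exact ⟨fun ⟨g, hg⟩ => ⟨f g, (f.orderOf_eq g).trans hg⟩,
      fun ⟨g, hg⟩ => ⟨f.symm g, (f.symm.orderOf_eq g).trans hg⟩⟩
  · refine G22.Hyp.nonempty_mulEquiv ⟨h2.trans hM.card, fun g => ?_⟩ hM
    obtain ⟨m, hm⟩ : orderOf g ∈ Set.range (orderOf : Lie.chevG2.group F → ℕ) := h1 ▸ ⟨g, rfl⟩
    simpa only [← orderOf_dvd_iff_pow_eq_one, hm] using hM.ord m

end Cfsg.Agent.S3427
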