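import Cfsg.Statements.S3430
import Cfsg.Agent.H5.Zsigmondy

set_option autoImplicit false
open Cfsg

namespace Cfsg.Agent.S3430

theorem result (q n : ℕ) (hq : 2 ≤ q) (hn : 2 ≤ n)
    (h1 : ¬ (n = 2 ∧ ∃ s t : ℕ, t ≤ 1 ∧ q + 1 = 2 ^ s * 3 ^ t))
    (h2 : ¬ (q = 2 ∧ (n = 4 ∨ n = 6 ∨ n = 10 ∨ n = 12 ∨ n = 18)))
    (h3 : ¬ (q = 3 ∧ (n = 4 ∨ n = 6))) (h4 : ¬ (q = 5 ∧ n = 6)) :
    ∃ p : ℕ, p.Prime ∧ p ∣ q ^ n - 1 ∧ (∀ i : ℕ, 1 ≤ i → i < n → ¬ p ∣ q ^ i - 1) ∧ (n + 1 < p ∨ p ^ 2 ∣ q ^ n - 1) := by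
  rcases hn.eq_or_lt with rfl | hn3
  · obtain ⟨s, a, ha, hqa⟩ := Nat.exists_eq_pow_mul_and_not_dvd (n := q + 1) (by omega) 2 (by norm_num)
    obtain ⟨t, b, hb, hab⟩ := Nat.exists_eq_pow_mul_and_not_dvd (n := a) (by rintro rfl; simp at ha) 3
      (by norm_num)
    by_cases hb1 : b = 1
    · subst hb1
      have ht : 2 ≤ t := by
        by_contra ht
        exact h1 ⟨rfl, s, t, by omega, by rw [hqa, hab, mul_one]⟩
      have h9 : 3 ^ 2 ∣ q + 1 := by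
        rw [hqa, hab, mul_one]
        exact (pow_dvd_pow 3 ht).mul_left _
      obtain ⟨h5, h6⟩ := H5.primitive_two_of_odd (q := q) (by omega) Nat.prime_three (by norm_num)
        ((dvd_pow_self 3 two_ne_zero).trans h9)
      refine ⟨3, Nat.prime_three, h5, h6, Or.inr ?_⟩
      have : q ^ 2 - 1 = (q + 1) * (q - 1) := by
        have := Nat.sq_sub_sq q 1
        simpa using this
      rw [this]; exact h9.mul_right _
    · obtain ⟨p, hp, hpb⟩ := Nat.exists_prime_and_dvd hb1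
      have hp2 : p ≠ 2 := by
        rintro rfl
        exact ha (hab ▸ hpb.mul_left _)
      have hp3 : p ≠ 3 := by
        rintro rfl
        exact hb hpb
      have hpq : p ∣ q + 1 := by
        rw [hqa, hab]
        exact (hpb.mul_left _).mul_left _
      obtain ⟨h5, h6⟩ := H5.primitive_two_of_odd (q := q) (by omega) hp hp2 hpq
      refine ⟨p, hp, h5, h6, Or.inl ?_⟩
      have := hp.two_le
      omega
  · exact H5.exists_large_zsigmondy q n hq hn3 h2 h3 h4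

end Cfsg.Agent.S3430
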