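import Cfsg.Statements.S3431
import Cfsg.Agent.H4.NseSolve
import Cfsg.Agent.H4.Small
import Cfsg.Agent.H3.PermChar
import Cfsg.Agent.L0.NineA6

set_option autoImplicit false
open Cfsg

namespace Cfsg.Agent.S3431

open H4 H4.Nse Finset

theorem spec_of_range {G H : Type*} [Group G] [Finite G] [Group H] [Finite H]
    (h : ((fun m : ℕ => Nat.card {g : G // orderOf g = m}) '' Set.range (orderOf : G → ℕ)) =
      ((fun m : ℕ => Nat.card {g : H // orderOf g = m}) '' Set.range (orderOf : H → ℕ)))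
    {s : List (ℕ × ℕ)} (h1 : ∀ p ∈ s, mo H p.1 = p.2) (h0 : 0 ∉ s.map Prod.snd)
    (h2 : Nat.card H ≤ ∑ n ∈ (s.map Prod.fst).toFinset, mo H n) :
    (∀ n, mo G n ∈ 0 :: s.map Prod.snd) ∧ ∀ c ∈ s.map Prod.snd, ∃ n, mo G n = c := by
  refine ⟨fun n => ?_, fun c hc => ?_⟩
  · rcases Nat.eq_zero_or_pos (mo G n) with h3 | h3
    · simp [h3]
    · obtain ⟨_, ⟨g, rfl⟩, hm⟩ := h.le ⟨n, mo_pos_iff.mp h3, rfl⟩
      obtain ⟨p, hp, e⟩ := List.mem_map.mp (List.mem_toFinset.mp (mem_of_sum h2 g))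
      refine List.mem_cons_of_mem _ (List.mem_map.mpr ⟨p, hp, ?_⟩)
      rw [← h1 p hp, e]
      exact hm
  · obtain ⟨p, hp, rfl⟩ := List.mem_map.mp hc
    have h3 : 0 < mo H p.1 := by
      rw [h1 p hp]
      exact Nat.pos_of_ne_zero fun h4 => h0 (h4 ▸ hc)
    obtain ⟨m, -, hm⟩ := h.ge ⟨p.1, mo_pos_iff.mp h3, rfl⟩
    exact ⟨m, hm.trans (h1 p hp)⟩

theorem cnt {H : Type*} [Group H] [Fintype H] [DecidableEq H] {d c : ℕ} (hd : d ≠ 0)
    (h : #{x : H | x ^ d = 1} = c) : ∑ n ∈ d.divisors, mo H n = c := by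
  rw [sum_divisors hd, Nat.card_eq_fintype_card, Fintype.card_subtype, h]

theorem cnt_prime {H : Type*} [Group H] [Fintype H] [DecidableEq H] {p c : ℕ} (hp : p.Prime)
    (h : #{x : H | x ^ p = 1} = c + 1) : mo H p = c := by
  have := cnt hp.ne_zero h
  rw [hp.sum_divisors, mo_one] at this
  omega

theorem mo4_2 : mo (alternatingGroup (Fin 4)) 2 = 3 :=
  cnt_prime (by norm_num) (by decide +kernel)

theorem mo4_3 : mo (alternatingGroup (Fin 4)) 3 = 8 :=
  cnt_prime (by norm_num) (by decide +kernel)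

theorem mo5_2 : mo (alternatingGroup (Fin 5)) 2 = 15 :=
  cnt_prime (by norm_num) (by decide +kernel)

theorem mo5_3 : mo (alternatingGroup (Fin 5)) 3 = 20 :=
  cnt_prime (by norm_num) (by decide +kernel)

theorem mo5_5 : mo (alternatingGroup (Fin 5)) 5 = 24 :=
  cnt_prime (by norm_num) (by decide +kernel)

theorem mo6_2 : mo (alternatingGroup (Fin 6)) 2 = 45 :=
  cnt_prime (by norm_num) (by decide +kernel)

theorem mo6_3 : mo (alternatingGroup (Fin 6)) 3 = 80 :=
  cnt_prime (by norm_num) (by decide +kernel)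

theorem mo6_5 : mo (alternatingGroup (Fin 6)) 5 = 144 :=
  cnt_prime (by norm_num) (by decide +kernel)

theorem mo6_4 : mo (alternatingGroup (Fin 6)) 4 = 90 := by
  have := cnt (H := alternatingGroup (Fin 6)) (d := 4) (c := 136) (by norm_num) (by decide +kernel)
  rw [show Nat.divisors 4 = {1, 2, 4} by decide, sum_insert (by decide), sum_pair (by decide),
    mo_one, mo6_2] at this
  omega

theorem card_alt4 : Nat.card (alternatingGroup (Fin 4)) = 12 := by
  have := two_mul_nat_card_alternatingGroup (α := Fin 4)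
  rw [Nat.card_perm, Nat.card_fin] at this
  change _ = 24 at this
  omega

variable {G : Type*} [Group G] [Finite G]

theorem sol4
    (h : ((fun m : ℕ => Nat.card {g : G // orderOf g = m}) '' Set.range (orderOf : G → ℕ)) =
      ((fun m : ℕ => Nat.card {g : alternatingGroup (Fin 4) // orderOf g = m}) ''
        Set.range (orderOf : alternatingGroup (Fin 4) → ℕ))) :
    Nat.card G = 12 ∧ (∀ p ∈ [(3, 8), (2, 3), (1, 1)], mo G p.1 = p.2) ∧
      ∀ g : G, orderOf g ∈ [(3, 8), (2, 3), (1, 1)].map Prod.fst := by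
  obtain ⟨h1, h2⟩ := spec_of_range h (s := [(3, 8), (2, 3), (1, 1)]) (by simp [mo_one, mo4_3, mo4_2]) (by simp) (by
    rw [card_alt4]
    simp [mo_one, mo4_3, mo4_2])
  exact solve h1 h2 (by simp) (a := 4) (b := 9) (by norm_num) (by norm_num)
    (card_dvd_of_go h1 [(2, 2), (3, 2)] (by decide +kernel))
    (D := [1, 2, 3, 4, 6, 9, 12, 18, 36])
    (by decide +kernel) (by decide +kernel) (by decide +kernel)

theorem sol5
    (h : ((fun m : ℕ => Nat.card {g : G // orderOf g = m}) '' Set.range (orderOf : G → ℕ)) =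
      ((fun m : ℕ => Nat.card {g : alternatingGroup (Fin 5) // orderOf g = m}) ''
        Set.range (orderOf : alternatingGroup (Fin 5) → ℕ))) :
    Nat.card G = 60 ∧ (∀ p ∈ [(5, 24), (3, 20), (2, 15), (1, 1)], mo G p.1 = p.2) ∧
      ∀ g : G, orderOf g ∈ [(5, 24), (3, 20), (2, 15), (1, 1)].map Prod.fst := by
  obtain ⟨h1, h2⟩ := spec_of_range h (s := [(5, 24), (3, 20), (2, 15), (1, 1)]) (by simp [mo_one, mo5_5, mo5_3, mo5_2]) (by simp) (by
    rw [Small.card_alt5]
    simp [mo_one, mo5_5, mo5_3, mo5_2])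
  exact solve h1 h2 (by simp) (a := 64) (b := 225) (by norm_num) (by norm_num)
    (card_dvd_of_go h1 [(2, 6), (3, 2), (5, 2)] (by decide +kernel))
    (D := [1, 2, 3, 4, 5, 6, 8, 9, 10, 12, 15, 16, 18, 20, 24, 25, 30, 32, 36, 40, 45, 48, 50, 60, 64, 72, 75, 80, 90, 96, 100, 120, 144, 150, 160, 180, 192, 200, 225, 240, 288, 300, 320, 360, 400, 450, 480, 576, 600, 720, 800, 900, 960, 1200, 1440, 1600, 1800, 2400, 2880, 3600, 4800, 7200, 14400])
    (by decide +kernel) (by decide +kernel) (by decide +kernel)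

theorem sol6
    (h : ((fun m : ℕ => Nat.card {g : G // orderOf g = m}) '' Set.range (orderOf : G → ℕ)) =
      ((fun m : ℕ => Nat.card {g : alternatingGroup (Fin 6) // orderOf g = m}) ''
        Set.range (orderOf : alternatingGroup (Fin 6) → ℕ))) :
    Nat.card G = 360 ∧ (∀ p ∈ [(5, 144), (4, 90), (3, 80), (2, 45), (1, 1)], mo G p.1 = p.2) ∧
      ∀ g : G, orderOf g ∈ [(5, 144), (4, 90), (3, 80), (2, 45), (1, 1)].map Prod.fst := by
  obtain ⟨h1, h2⟩ := spec_of_range h (s := [(5, 144), (4, 90), (3, 80), (2, 45), (1, 1)]) (by simp [mo_one, mo6_5, mo6_4, mo6_3, mo6_2]) (by simp) (by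
    rw [L0.Nine.card_alt6]
    simp [mo_one, mo6_5, mo6_4, mo6_3, mo6_2])
  exact solve h1 h2 (by simp) (a := 360) (b := 315) (by norm_num) (by norm_num)
    (card_dvd_of_go h1 [(2, 3), (3, 4), (5, 2), (7, 1)] (by decide +kernel))
    (D := [1, 2, 3, 4, 5, 6, 7, 8, 9, 10, 12, 14, 15, 18, 20, 21, 24, 25, 27, 28, 30, 35, 36, 40, 42, 45, 50, 54, 56, 60, 63, 70, 72, 75, 81, 84, 90, 100, 105, 108, 120, 126, 135, 140, 150, 162, 168, 175, 180, 189, 200, 210, 216, 225, 252, 270, 280, 300, 315, 324, 350, 360, 378, 405, 420, 450, 504, 525, 540, 567, 600, 630, 648, 675, 700, 756, 810, 840, 900, 945, 1050, 1080, 1134, 1260, 1350, 1400, 1512, 1575, 1620, 1800, 1890, 2025, 2100, 2268, 2520, 2700, 2835, 3150, 3240, 3780, 4050, 4200, 4536, 4725, 5400, 5670, 6300, 7560, 8100, 9450, 11340, 12600, 14175, 16200, 18900, 22680, 28350, 37800, 56700, 113400])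
    (by decide +kernel) (by decide +kernel) (by decide +kernel)

theorem alt4 (hG : Nat.card G = 12) (h : mo G 3 = 8) :
    Nonempty (G ≃* alternatingGroup (Fin 4)) := by
  have := Fact.mk Nat.prime_three
  obtain ⟨x, hx⟩ := mo_pos_iff.mp (show 0 < mo G 3 by omega)
  have h1 := mo_prime hx (by rw [hG]; norm_num)
  have h2 : Nat.card (Subgroup.zpowers x) = 3 := by rw [Nat.card_zpowers, hx]
  have h3 : (Subgroup.zpowers x).index = 4 := by
    have := (Subgroup.zpowers x).index_mul_card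
    rw [h2] at this
    omega
  have h4 : (MulAction.toPermHom G (G ⧸ Subgroup.zpowers x)).ker = ⊥ := by
    rw [← Subgroup.normalCore_eq_ker]
    have h5 := Subgroup.card_dvd_of_le (Subgroup.zpowers x).normalCore_le
    rw [h2, Nat.dvd_prime Nat.prime_three] at h5
    rcases h5 with h5 | h5
    · exact Subgroup.card_eq_one.mp h5
    · have h6 := Subgroup.eq_of_le_of_card_ge (Subgroup.zpowers x).normalCore_le (by omega)
      have h7 : (Subgroup.zpowers x).Normal := h6 ▸ (Subgroup.zpowers x).normalCore_normal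
      rw [Subgroup.normalizer_eq_top, Subgroup.card_top, h, hG] at h1
      omega
  let e : G ⧸ Subgroup.zpowers x ≃ Fin 4 := Finite.equivFinOfCardEq h3
  exact Small.alt_of_injective
    (e.permCongrHom.toMonoidHom.comp (MulAction.toPermHom G (G ⧸ Subgroup.zpowers x)))
    (e.permCongrHom.injective.comp ((MonoidHom.ker_eq_bot_iff _).mp h4)) (by rw [hG]; rfl)

theorem alt5 (hG : Nat.card G = 60) (h : mo G 5 = 24) :
    Nonempty (G ≃* alternatingGroup (Fin 5)) := by
  have := Fact.mk Nat.prime_five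
  obtain ⟨x, hx⟩ := mo_pos_iff.mp (show 0 < mo G 5 by omega)
  have h1 := mo_prime hx (by rw [hG]; norm_num)
  have h2 : Nat.card (Subgroup.zpowers x) = 5 ^ (Nat.card G).factorization 5 := by
    rw [Nat.card_zpowers, hx, hG, show 60 = 5 ^ 1 * 12 by norm_num, Nat.factorization_mul
      (by norm_num) (by norm_num), Nat.Prime.factorization_pow Nat.prime_five]
    simp [Nat.factorization_eq_zero_of_not_dvd]
  refine H3.nonempty_mulEquiv_alt_five hG ?_
  rw [(Sylow.ofCard _ h2).card_eq_index_normalizer]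
  have h3 := (Subgroup.normalizer (Subgroup.zpowers x : Set G)).index_mul_card
  change (Subgroup.normalizer (Subgroup.zpowers x : Set G)).index = 6
  rw [h, hG] at h1
  rw [show Nat.card (Subgroup.normalizer (Subgroup.zpowers x : Set G)) = 10 by omega] at h3
  omega

theorem alt6 (hG : Nat.card G = 360) (h : ∀ g : G, orderOf g ∈ [5, 4, 3, 2, 1]) :
    Nonempty (G ≃* alternatingGroup (Fin 6)) := by
  refine L0.Nine.alt6_of_card hG fun x y hc hx hy => ?_
  by_contra h1
  push Not at h1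
  have := Fact.mk Nat.prime_three
  have h2 : orderOf x = 3 := orderOf_eq_prime hx h1.1
  have h3 := h (x * y)
  rw [Commute.orderOf_mul_eq_mul_orderOf_of_coprime hc (h2 ▸ hy.symm), h2] at h3
  have h4 := mt orderOf_eq_one_iff.mp h1.2
  simp only [List.mem_cons, List.not_mem_nil, or_false] at h3
  omega

/-- Let n be 4, 5 or 6 and let G be a finite group whose set of sizes of same-order classes (the set of numbers #{g : o(g) = m} over the element orders m of G) equals that of the alternating group of degree n. Then G is isomorphic to that alternating group. -/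
theorem result {G : Type*} [Group G] [Finite G] (n : ℕ) (hn : n = 4 ∨ n = 5 ∨ n = 6)
    (h : ((fun m : ℕ => Nat.card {g : G // orderOf g = m}) '' Set.range (orderOf : G → ℕ)) = ((fun m : ℕ => Nat.card {g : ↥(alternatingGroup (Fin n)) // orderOf g = m}) '' Set.range (orderOf : ↥(alternatingGroup (Fin n)) → ℕ))) :
    Nonempty (G ≃* ↥(alternatingGroup (Fin n))) := by
  rcases hn with rfl | rfl | rfl
  · obtain ⟨h1, h2, -⟩ := sol4 h
    exact alt4 h1 (h2 (3, 8) (by simp))
  · obtain ⟨h1, h2, -⟩ := sol5 h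
    exact alt5 h1 (h2 (5, 24) (by simp))
  · obtain ⟨h1, -, h2⟩ := sol6 h
    exact alt6 h1 h2

end Cfsg.Agent.S3431
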