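import Cfsg.Statements.S3433
import Cfsg.Agent.H5.SpecSix

set_option autoImplicit false
open Cfsg

namespace Cfsg.Agent.S3433

/-- A finite group whose set of element orders is exactly {1, 2, 3, 4, 5} is isomorphic to the alternating group of degree 6, or has a normal elementary abelian 2-subgroup with quotient isomorphic to the alternating group of degree 5. -/
theorem result {G : Type*} [Group G] [Finite G] (h : Set.range (orderOf : G → ℕ) = {k : ℕ | 1 ≤ k ∧ k ≤ 5}) :
    Nonempty (G ≃* ↥(alternatingGroup (Fin 6))) ∨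
      ∃ (N : Subgroup G) (_ : N.Normal), Cfsg.IsElementaryAbelian 2 N ∧ Nonempty (G ⧸ N ≃* ↥(alternatingGroup (Fin 5))) := by
  have h0 : ∀ g : G, orderOf g ≤ 5 := fun g => (h.le ⟨g, rfl⟩).2
  have h1 : ∀ k : ℕ, 1 ≤ k → k ≤ 5 → k ∣ Nat.card G := fun k h1 h2 => by
    obtain ⟨g, rfl⟩ := h.ge (show k ∈ {k : ℕ | 1 ≤ k ∧ k ≤ 5} from ⟨h1, h2⟩)
    exact orderOf_dvd_natCard g
  refine (H5.cases_of_le_five h0 (h1 2 (by decide) (by decide)) (h1 3 (by decide) (by decide))
    (h1 5 (by decide) (by decide))).imp_right ?_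
  rintro ⟨φ, h2, h3⟩
  exact ⟨φ.ker, inferInstance, H5.elem_of_le_five h0 h2 h3,
    ⟨QuotientGroup.quotientKerEquivOfSurjective φ h2⟩⟩

end Cfsg.Agent.S3433
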