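import Cfsg.Statements.S3704


set_option autoImplicit false
open Cfsg

namespace Cfsg.Agent.S3704

open MulAction

theorem inv_out_smul {G Ω : Type*} [Group G] [MulAction G Ω] (H : Subgroup G) {φ : Ω → ℚ}
    (hφ : ∀ h ∈ H, ∀ a, φ (h • a) = φ a) (g : G) (x : G ⧸ H) (a : Ω) :
    φ ((g • x).out⁻¹ • g • a) = φ (x.out⁻¹ • a) := by
  have h1 : (g • x).out⁻¹ * (g * x.out) ∈ H := by
    rw [← QuotientGroup.eq, QuotientGroup.out_eq', ← smul_eq_mul, ← Quotient.smul_mk,
      QuotientGroup.out_eq']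
  rw [← hφ _ h1 (x.out⁻¹ • a)]
  simp only [smul_smul, mul_assoc, mul_inv_cancel, mul_one]

theorem pair_inv {G Ω : Type*} [Group G] [MulAction G Ω] (H : Subgroup G) [Fintype (G ⧸ H)]
    {φ ψ : Ω → ℚ} (hφ : ∀ h ∈ H, ∀ a, φ (h • a) = φ a) (hψ : ∀ h ∈ H, ∀ a, ψ (h • a) = ψ a)
    (g : G) (a b : Ω) :
    ∑ x : G ⧸ H, φ (x.out⁻¹ • g • a) * ψ (x.out⁻¹ • g • b) =
      ∑ x : G ⧸ H, φ (x.out⁻¹ • a) * ψ (x.out⁻¹ • b) := by
  rw [← Equiv.sum_comp (MulAction.toPerm g : Equiv.Perm (G ⧸ H))]
  refine Finset.sum_congr rfl fun x _ => ?_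
  rw [toPerm_apply, inv_out_smul H hφ, inv_out_smul H hψ]

theorem no_three {G Ω : Type*} [Group G] [Finite G] [MulAction G Ω] [Finite Ω]
    (h2 : IsMultiplyPretransitive G Ω 2) (H : Subgroup G) (hidx : H.index = Nat.card Ω)
    {a₁ a₂ a₃ : Ω} (h12 : a₂ ∉ orbit H a₁) (h13 : a₃ ∉ orbit H a₁) (h23 : a₂ ∉ orbit H a₃) :
    False := by
  classical
  have := Fintype.ofFinite Ω
  have := Fintype.ofFinite (G ⧸ H)
  have htr : IsPretransitive G Ω := isPretransitive_of_is_two_pretransitive
  let ind : Ω → Ω → ℚ := fun a b => if b ∈ orbit H a then 1 else 0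
  have hind : ∀ a, ∀ h ∈ H, ∀ b, ind a (h • b) = ind a b := by
    intro a h hh b
    have : h • b ∈ orbit H a ↔ b ∈ orbit H a := by
      rw [← orbit_eq_iff, ← orbit_eq_iff]
      have := orbit_smul (⟨h, hh⟩ : H) b
      rw [Subgroup.mk_smul] at this
      rw [this]
    simp only [ind, this]
  have hne : ∀ {a b c : Ω}, b ∉ orbit H a → c ∈ orbit H a → c ∉ orbit H b := by
    intro a b c h1 h2 h3
    apply h1
    rw [← orbit_eq_iff] at h2 h3 ⊢
    rw [← h2, h3]
  let P : (Ω → ℚ) → (Ω → ℚ) → Ω → Ω → ℚ := fun φ ψ a b =>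
    ∑ x : G ⧸ H, φ (x.out⁻¹ • a) * ψ (x.out⁻¹ • b)
  have ha12 : a₁ ≠ a₂ := fun e => h12 (e ▸ mem_orbit_self a₁)
  have hP : ∀ φ ψ : Ω → ℚ, (∀ h ∈ H, ∀ a, φ (h • a) = φ a) → (∀ h ∈ H, ∀ a, ψ (h • a) = ψ a) →
      ∀ a b, P φ ψ a b = if a = b then P φ ψ a₁ a₁ else P φ ψ a₁ a₂ := by
    intro φ ψ hφ hψ a b
    split_ifs with hab
    · subst hab
      obtain ⟨g, rfl⟩ := exists_smul_eq G a₁ a
      exact pair_inv H hφ hψ g _ _
    · obtain ⟨g, rfl, rfl⟩ := is_two_pretransitive_iff.mp h2 ha12 hab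
      exact pair_inv H hφ hψ g _ _
  -- the linear map attached to the first orbit
  let L : (Ω → ℚ) →ₗ[ℚ] (G ⧸ H → ℚ) :=
    { toFun := fun f x => ∑ a, ind a₁ (x.out⁻¹ • a) * f a
      map_add' := fun f g => by
        ext x; simp only [Pi.add_apply, mul_add, Finset.sum_add_distrib]
      map_smul' := fun c f => by
        ext x; simp only [Pi.smul_apply, smul_eq_mul, RingHom.id_apply, Finset.mul_sum]
        refine Finset.sum_congr rfl fun a _ => by ring }
  have hL : ∀ f x, L f x = ∑ a, ind a₁ (x.out⁻¹ • a) * f a := fun _ _ => rfl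
  have hswap : ∀ (φ : Ω → ℚ) (f : Ω → ℚ) (a : Ω),
      ∑ x : G ⧸ H, φ (x.out⁻¹ • a) * L f x = ∑ b, P φ (ind a₁) a b * f b := by
    intro φ f a
    simp only [hL, P, Finset.mul_sum, Finset.sum_mul]
    rw [Finset.sum_comm]
    refine Finset.sum_congr rfl fun b _ => Finset.sum_congr rfl fun x _ => by ring
  set r := P (ind a₁) (ind a₁) a₁ a₁ with hr
  set l := P (ind a₁) (ind a₁) a₁ a₂ with hl
  have hl0 : 0 ≤ l := Finset.sum_nonneg fun x _ => by
    simp only [ind]; split_ifs <;> norm_num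
  have hlr : l < r := by
    have h1 : P (ind a₁) (ind a₁) a₁ a₂ < P (ind a₁) (ind a₁) a₁ a₁ := by
      apply Finset.sum_lt_sum
      · intro x _
        simp only [ind]; split_ifs <;> norm_num
      · refine ⟨((1 : G) : G ⧸ H), Finset.mem_univ _, ?_⟩
        have h3 : ((1 : G) : G ⧸ H).out⁻¹ ∈ H := by
          have := (QuotientGroup.eq (s := H)).mp (QuotientGroup.out_eq' ((1 : G) : G ⧸ H))
          simpa using this
        rw [hind a₁ _ h3, hind a₁ _ h3]
        simp [ind, h12, mem_orbit_self]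
    exact h1
  have hinj : Function.Injective L := by
    rw [injective_iff_map_eq_zero]
    intro f hf
    have h1 : ∀ a, (r - l) * f a + l * ∑ b, f b = 0 := by
      intro a
      have h3 := hswap (ind a₁) f a
      rw [hf] at h3
      simp only [Pi.zero_apply, mul_zero, Finset.sum_const_zero] at h3
      rw [h3, Finset.mul_sum]
      have : ∀ b, P (ind a₁) (ind a₁) a b * f b =
          (if a = b then (r - l) * f b else 0) + l * f b := by
        intro b
        rw [hP _ _ (hind a₁) (hind a₁)]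
        split_ifs <;> ring
      simp only [this, Finset.sum_add_distrib, Finset.sum_ite_eq, Finset.mem_univ, if_true]
    have h4 : ∑ a, ((r - l) * f a + l * ∑ b, f b) = 0 := by simp only [h1, Finset.sum_const_zero]
    rw [Finset.sum_add_distrib, ← Finset.mul_sum, Finset.sum_const, nsmul_eq_mul] at h4
    have h5 : (r - l + (Finset.univ : Finset Ω).card * l) * ∑ b, f b = 0 := by linarith
    have h6 : ∑ b, f b = 0 := by
      rcases mul_eq_zero.mp h5 with h | h
      · have : (0 : ℚ) ≤ (Finset.univ : Finset Ω).card * l := by positivity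
        linarith
      · exact h
    ext a
    have h7 := h1 a
    rw [h6, mul_zero, add_zero] at h7
    rcases mul_eq_zero.mp h7 with h | h
    · linarith
    · exact h
  have hsurj : Function.Surjective L := by
    rw [← LinearMap.injective_iff_surjective_of_finrank_eq_finrank]
    · exact hinj
    · rw [Module.finrank_fintype_fun_eq_card, Module.finrank_fintype_fun_eq_card,
        ← Nat.card_eq_fintype_card, ← Nat.card_eq_fintype_card, ← hidx]
      rfl
  let s₂ : ℚ := ∑ b, ind a₂ b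
  let s₃ : ℚ := ∑ b, ind a₃ b
  let φ : Ω → ℚ := fun b => s₃ * ind a₂ b - s₂ * ind a₃ b
  have hφ : ∀ h ∈ H, ∀ a, φ (h • a) = φ a := fun h hh a => by
    simp only [φ, hind _ h hh]
  have hφs : ∑ b, φ b = 0 := by
    simp only [φ, Finset.sum_sub_distrib, ← Finset.mul_sum]
    ring
  have hd : P φ (ind a₁) a₁ a₁ = 0 := Finset.sum_eq_zero fun x _ => by
    by_cases h : x.out⁻¹ • a₁ ∈ orbit H a₁
    · simp [φ, ind, hne h12 h, hne h13 h]
    · simp [ind, h]
  have hc : P φ (ind a₁) a₁ a₂ = 0 := by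
    have h1 : ∑ a, P φ (ind a₁) a a₁ = 0 := by
      simp only [P]
      rw [Finset.sum_comm]
      refine Finset.sum_eq_zero fun x _ => ?_
      have e : ∑ a, φ (x.out⁻¹ • a) = 0 :=
        (Equiv.sum_comp (MulAction.toPerm x.out⁻¹ : Equiv.Perm Ω) φ).trans hφs
      rw [← Finset.sum_mul, e, zero_mul]
    by_contra hc
    have h3 : ∀ a, P φ (ind a₁) a a₁ = (if a = a₁ then 0 else 1) * P φ (ind a₁) a₁ a₂ := by
      intro a
      rw [hP _ _ hφ (hind a₁) a a₁, hd]
      split_ifs <;> simp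
    simp only [h3, ← Finset.sum_mul] at h1
    rcases mul_eq_zero.mp h1 with h | h
    · rw [Finset.sum_eq_zero_iff_of_nonneg (fun a _ => by split_ifs <;> norm_num)] at h
      have := h a₂ (Finset.mem_univ _)
      simp [ha12.symm] at this
    · exact hc h
  obtain ⟨f, hf⟩ := hsurj (Pi.single ((1 : G) : G ⧸ H) 1)
  have h8 := hswap φ f a₂
  have h9 : ∑ b, P φ (ind a₁) a₂ b * f b = 0 := Finset.sum_eq_zero fun b _ => by
    rw [hP _ _ hφ (hind a₁), hd, hc]; simp
  rw [h9, hf, Finset.sum_eq_single ((1 : G) : G ⧸ H) (fun x _ hx => by simp [hx]) (by simp)] at h8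
  have h3 : ((1 : G) : G ⧸ H).out⁻¹ ∈ H := by
    have := (QuotientGroup.eq (s := H)).mp (QuotientGroup.out_eq' ((1 : G) : G ⧸ H))
    simpa using this
  rw [hφ _ h3] at h8
  simp only [φ, ind, mem_orbit_self, if_true, h23, if_false, Pi.single_eq_same, mul_one,
    mul_zero, sub_zero] at h8
  have h10 := (Finset.sum_eq_zero_iff_of_nonneg (fun a _ => by
    simp only [ind]; split_ifs <;> norm_num)).mp h8 a₃ (Finset.mem_univ _)
  simp [ind, mem_orbit_self] at h10

/-- Let G be a finite group acting faithfully and 2-transitively on a finite set Ω of size n, and let H be a subgroup of index n in G which is not transitive on Ω and fixes no point of Ω. Then H has exactly two orbits on Ω. -/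
theorem result {G Ω : Type*} [Group G] [Finite G] [MulAction G Ω] [FaithfulSMul G Ω] [Finite Ω] (h2 : MulAction.IsMultiplyPretransitive G Ω 2) (H : Subgroup G) (hidx : H.index = Nat.card Ω) (hnt : ¬ MulAction.IsPretransitive H Ω) (hfix : ∀ a : Ω, ∃ h : H, h • a ≠ a) : Nat.card (MulAction.orbitRel.Quotient H Ω) = 2 := by
  classical
  have hn : ¬ Nat.card (MulAction.orbitRel.Quotient H Ω) ≤ 1 := by
    intro h
    apply hnt
    have := Finite.card_le_one_iff_subsingleton.mp h
    refine ⟨fun x y => ?_⟩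
    have h1 : (Quotient.mk _ y : MulAction.orbitRel.Quotient H Ω) = Quotient.mk _ x :=
      Subsingleton.elim _ _
    exact Quotient.exact h1
  by_contra hne
  have := Fintype.ofFinite (MulAction.orbitRel.Quotient H Ω)
  have h3 : 2 < Fintype.card (MulAction.orbitRel.Quotient H Ω) := by
    rw [← Nat.card_eq_fintype_card]; omega
  obtain ⟨x, y, z, hxy, hxz, hyz⟩ := Fintype.two_lt_card_iff.mp h3
  induction x using Quotient.inductionOn with | _ a => ?_
  induction y using Quotient.inductionOn with | _ b => ?_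
  induction z using Quotient.inductionOn with | _ c => ?_
  exact no_three h2 H hidx (a₁ := a) (a₂ := b) (a₃ := c)
    (fun h => hxy (Quotient.sound h).symm) (fun h => hxz (Quotient.sound h).symm)
    (fun h => hyz (Quotient.sound h))

end Cfsg.Agent.S3704
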