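import Cfsg.Statements.S3706
import Cfsg.Agent.H8.Ito2
import Cfsg.Agent.S3704

set_option autoImplicit false
open Cfsg

namespace Cfsg.Agent.S3706

open MulAction Finset

/-- Let G be a finite group acting faithfully and 2-transitively on a finite set Ω of size n, and let H be a subgroup of index n in G which is not transitive on Ω and fixes no point of Ω. Suppose H acts unfaithfully on one of its orbits: some non-identity element of H fixes every point of that orbit. Then there are an integer m ≥ 2 and a finite field F with #Ω = (#F^(m+1) − 1)/(#F − 1), and G has a normal subgroup isomorphic to PSL_{m+1}(F) whose centralizer in G is trivial (so that G lies between PSL_{m+1}(F) and its automorphism group). -/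
theorem result {G Ω : Type*} [Group G] [Finite G] [MulAction G Ω] [FaithfulSMul G Ω] [Finite Ω] (h2 : MulAction.IsMultiplyPretransitive G Ω 2) (H : Subgroup G) (hidx : H.index = Nat.card Ω) (hnt : ¬ MulAction.IsPretransitive H Ω) (hfix : ∀ a : Ω, ∃ h : H, h • a ≠ a) (hunf : ∃ a : Ω, ∃ h : H, h ≠ 1 ∧ ∀ b ∈ MulAction.orbit H a, h • b = b) : ∃ (m : ℕ) (F : Type) (_ : Field F) (_ : Fintype F), 2 ≤ m ∧ Nat.card Ω = (Fintype.card F ^ (m + 1) - 1) / (Fintype.card F - 1) ∧ ∃ N : Subgroup G, N.Normal ∧ Nonempty (N ≃* Matrix.ProjectiveSpecialLinearGroup (Fin (m + 1)) F) ∧ Subgroup.centralizer (N : Set G) = ⊥ := by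
  classical
  have := Fintype.ofFinite Ω
  have := Fintype.ofFinite (G ⧸ H)
  have htr : IsPretransitive G Ω := isPretransitive_of_is_two_pretransitive
  obtain ⟨a, h, hh1, hh⟩ := hunf
  have horb : ∀ h ∈ H, ∀ p, h • p ∈ orbit H a ↔ p ∈ orbit H a := fun h hh p => by
    rw [← orbit_eq_iff, ← orbit_eq_iff]
    have := orbit_smul (⟨h, hh⟩ : H) p
    rw [Subgroup.mk_smul] at this
    rw [this]
  let inc : Ω → G ⧸ H → Prop := fun p x => x.out⁻¹ • p ∈ orbit H a
  have hinv : ∀ (g : G) p x, inc (g • p) (g • x) ↔ inc p x := fun g p x => by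
    have h1 : (g • x).out⁻¹ * (g * x.out) ∈ H := by
      rw [← QuotientGroup.eq, QuotientGroup.out_eq', ← smul_eq_mul, ← Quotient.smul_mk,
        QuotientGroup.out_eq']
    simp only [inc]
    rw [← horb _ h1 (x.out⁻¹ • p)]
    simp only [smul_smul, mul_assoc, mul_inv_cancel, mul_one]
  let x₀ : G ⧸ H := ((1 : G) : G ⧸ H)
  have hx₀ : ∀ g : G, g • x₀ = x₀ ↔ g ∈ H := fun g => by
    rw [← mem_stabilizer_iff, stabilizer_quotient]
  have hinc : ∀ p, inc p x₀ ↔ p ∈ orbit H a := fun p => horb _ (by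
    rw [← mul_one x₀.out⁻¹, ← QuotientGroup.eq, QuotientGroup.out_eq']) p
  obtain ⟨a', ha'⟩ : ∃ a', a' ∉ orbit H a := by
    by_contra hne
    push Not at hne
    refine hnt ⟨fun x y => ?_⟩
    obtain ⟨g, rfl⟩ := hne x
    obtain ⟨g', rfl⟩ := hne y
    exact ⟨g' * g⁻¹, by simp only [mul_smul, inv_smul_smul]⟩
  have hcard : Fintype.card Ω = Fintype.card (G ⧸ H) := by
    rw [← Nat.card_eq_fintype_card, ← Nat.card_eq_fintype_card, ← hidx, Subgroup.index]
  have hb : ∀ x, #{p | inc p x} = #{p | inc p x₀} := fun x => by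
    obtain ⟨g, rfl⟩ := exists_smul_eq G x₀ x
    exact (card_bijective _ (MulAction.bijective g) fun p => by simp [hinv]).symm
  have hp : ∀ p, #{x | inc p x} = #{x | inc a x} := fun p => by
    obtain ⟨g, rfl⟩ := exists_smul_eq G a p
    exact (card_bijective _ (MulAction.bijective g) fun p => by simp [hinv]).symm
  have haa : a ≠ a' := fun e => ha' (e ▸ mem_orbit_self a)
  have hpp : ∀ {p q}, p ≠ q → #{x | inc p x ∧ inc q x} = #{x | inc a x ∧ inc a' x} := fun h => by
    obtain ⟨g, rfl, rfl⟩ := is_two_pretransitive_iff.mp h2 haa h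
    exact (card_bijective _ (MulAction.bijective g) fun p => by simp [hinv]).symm
  have hk : #{x | inc a x} = #{p | inc p x₀} := by
    have h1 : ∑ p, (#{x | inc p x} : ℤ) = ∑ x, (#{p | inc p x} : ℤ) := by
      simp only [H8.card_filter_eq_sum]
      exact sum_comm
    simp only [hb, hp, sum_const, card_univ, hcard, nsmul_eq_mul] at h1
    exact_mod_cast mul_left_cancel₀ (by exact_mod_cast Fintype.card_ne_zero) h1
  have D := H8.SD.of_pp hb (fun p => (hp p).trans hk) hpp (by
    rw [← hk]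
    exact card_lt_card ⟨fun x hx => by simp_all, fun h => ha' (by
      simpa [hinc] using h (show x₀ ∈ _ by simp [hinc]))⟩) hcard
  rw [← hidx, Subgroup.index]
  refine D.ito hinv ?_ ?_ ?_ (b₀ := x₀) ?_
  · obtain ⟨g, hg⟩ := hfix a
    exact one_lt_card.mpr ⟨g • a, by simp [hinc], a, by simp [hinc], hg⟩
  · have key : ∀ {b c}, x₀ ≠ b → x₀ ≠ c → ∃ g ∈ H, g • b = c := fun hb hc =>
      D.orbit_of_two hinv H (p₀ := a) (p₁ := a') (fun p => by
        by_contra hne
        push Not at hne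
        exact S3704.no_three h2 H hidx (a₂ := p) (fun ⟨g, hg⟩ => hne.1 g g.2 hg) ha'
          fun ⟨g, hg⟩ => hne.2 g g.2 hg) (fun g hg => by rwa [(hx₀ g).mpr hg])
        fun g hg => by rwa [(hx₀ g).mpr hg]
    intro b c b' c' h h'
    obtain ⟨g, rfl⟩ := exists_smul_eq G x₀ b
    obtain ⟨g', rfl⟩ := exists_smul_eq G x₀ b'
    obtain ⟨u, hu, e⟩ := key (b := g⁻¹ • c) (c := g'⁻¹ • c') (fun e => h (eq_inv_smul_iff.mp e))
      fun e => h' (eq_inv_smul_iff.mp e)
    exact ⟨g' * u * g⁻¹, by rw [mul_smul, mul_smul, inv_smul_smul, (hx₀ u).mpr hu],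
      by rw [mul_smul, mul_smul, e, smul_inv_smul]⟩
  · intro b y _
    obtain ⟨g, rfl⟩ := exists_smul_eq G x₀ b
    obtain ⟨u, hu⟩ := hfix (g⁻¹ • y)
    exact ⟨g * u * g⁻¹, by rw [mul_smul, mul_smul, inv_smul_smul, (hx₀ u).mpr u.2],
      fun e => hu (by rwa [mul_smul, mul_smul, ← eq_inv_smul_iff] at e)⟩
  · exact Subgroup.ne_bot_iff_exists_ne_one.mpr ⟨⟨h, fun p hp => hh p ((hinc p).mp hp)⟩,
      fun e => hh1 (Subtype.ext (Subtype.ext_iff.mp e :))⟩

end Cfsg.Agent.S3706
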