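import Cfsg.Statements.S3718
import Cfsg.Agent.H3.OC7
import Cfsg.Agent.S3421

set_option autoImplicit false
open Cfsg

namespace Cfsg.Agent.S3718

/-- Let G be a finite simple group whose set of element orders contains at most one composite number (at most one element order that is neither 1 nor a prime). Then G is cyclic of prime order, or isomorphic to PSL₂(q) for q ∈ {5, 7, 8, 9, 11, 13, 16}, to PSL₃(4), to the Suzuki group Sz(8), to PSL₂(3ⁿ) with (3ⁿ − 1)/2 and (3ⁿ + 1)/4 both prime, or to PSL₂(2ⁿ) with 2ⁿ − 1 and (2ⁿ + 1)/3 both prime. -/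
theorem result {G : Type*} [Group G] [Finite G] [IsSimpleGroup G]
    (h1 : {n : ℕ | n ∈ Set.range (orderOf : G → ℕ) ∧ 1 < n ∧ ¬ n.Prime}.Subsingleton) :
    (Nat.card G).Prime ∨
    (∃ (F : Type) (_ : Field F) (_ : Fintype F), (Fintype.card F = 5 ∨ Fintype.card F = 7 ∨ Fintype.card F = 8 ∨ Fintype.card F = 9 ∨
        Fintype.card F = 11 ∨ Fintype.card F = 13 ∨ Fintype.card F = 16) ∧ Nonempty (G ≃* Matrix.ProjectiveSpecialLinearGroup (Fin 2) F)) ∨
    (∃ (F : Type) (_ : Field F) (_ : Fintype F), Fintype.card F = 4 ∧ Nonempty (G ≃* Matrix.ProjectiveSpecialLinearGroup (Fin 3) F)) ∨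
    (∃ (F : Type) (_ : Field F) (_ : Fintype F), Fintype.card F = 8 ∧ Nonempty (G ≃* ↥(Cfsg.Lie.Sz F 4))) ∨
    (∃ (F : Type) (_ : Field F) (_ : Fintype F), ∃ n r s : ℕ, r.Prime ∧ s.Prime ∧ 3 ^ n - 1 = 2 * r ∧ 3 ^ n + 1 = 4 * s ∧
        Fintype.card F = 3 ^ n ∧ Nonempty (G ≃* Matrix.ProjectiveSpecialLinearGroup (Fin 2) F)) ∨
    (∃ (F : Type) (_ : Field F) (_ : Fintype F), ∃ n r : ℕ, (2 ^ n - 1).Prime ∧ r.Prime ∧ 2 ^ n + 1 = 3 * r ∧
        Fintype.card F = 2 ^ n ∧ Nonempty (G ≃* Matrix.ProjectiveSpecialLinearGroup (Fin 2) F)) := by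
  by_cases hG : ∃ x y : G, x * y ≠ y * x
  swap
  · push Not at hG
    let : CommGroup G := { mul_comm := hG }
    exact .inl (IsSimpleGroup.prime_card (α := G))
  right
  rcases H3.oneComp_cases hG h1 with ⟨F, _, _, ⟨e⟩⟩ | ⟨-, h | h⟩
  · rcases H3.oneComp_psl2 hG h1 e rfl with h | h | ⟨n, r, s, h⟩ | ⟨n, r, h⟩
    · have := Fact.mk Nat.prime_five
      refine .inl ⟨ZMod 5, inferInstance, inferInstance, .inl (ZMod.card 5),
        (S3421.result (by rw [ZMod.card]; decide)).2 ⟨?_, ?_⟩⟩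
      · obtain ⟨p, _, n, hp, h2⟩ := FiniteField.card' F
        have h3 : p = 2 := (Nat.prime_dvd_prime_iff_eq hp Nat.prime_two).1 (hp.dvd_of_dvd_pow
          (show p ∣ 2 ^ 2 from (dvd_pow_self p n.ne_zero).trans (h2.symm.trans h).dvd))
        rw [H6.spec_eq_of_mulEquiv e, H6.spec_psl2, H6.spec_psl2, ZMod.card, h, ZMod.ringChar_zmod_n,
          ringChar.eq F p, h3]
        ext n
        norm_num
        tauto
      · have h2 := H3.card_psl2_mul F
        have h3 := H3.card_psl2_mul (ZMod 5)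
        rw [ZMod.card] at h3
        rw [h, ← Nat.card_congr e.toEquiv] at h2
        rw [show Nat.gcd (4 - 1) 2 = 1 by decide] at h2
        rw [show Nat.gcd (5 - 1) 2 = 2 by decide] at h3
        exact (show Nat.card G = 60 by omega).trans (Nat.eq_of_mul_eq_mul_right two_pos h3).symm
    · exact .inl ⟨F, _, _, h, ⟨e⟩⟩
    · exact .inr (.inr (.inr (.inl ⟨F, _, _, n, r, s, h.1, h.2.1, h.2.2.1, h.2.2.2.1, h.2.2.2.2, ⟨e⟩⟩)))
    · exact .inr (.inr (.inr (.inr ⟨F, _, _, n, r, h.1, h.2.1, h.2.2.1, h.2.2.2, ⟨e⟩⟩)))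
  · exact .inr (.inl h.2)
  · exact .inr (.inr (.inl h.2))

end Cfsg.Agent.S3718
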