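import Cfsg.Statements.S3728
import Cfsg.Agent.H5.SzMax

set_option autoImplicit false
open Cfsg

namespace Cfsg.Agent.S3728

/-- Let q = 2^(2m+1) with m ≥ 1 and let G be a finite group whose set of orders of maximal subgroups equals that of the Suzuki group Sz(q). Then G is isomorphic to Sz(q). -/
theorem result {G : Type*} [Group G] [Finite G] {F : Type*} [Field F] [Fintype F] (m : ℕ) (hm : 1 ≤ m)
    (hF : Fintype.card F = 2 ^ (2 * m + 1))
    (h : {k : ℕ | ∃ M : Subgroup G, IsCoatom M ∧ k = Nat.card ↥M} = {k : ℕ | ∃ M : Subgroup ↥(Cfsg.Lie.Sz F (2 ^ (m + 1))), IsCoatom M ∧ k = Nat.card ↥M}) :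
    Nonempty (G ≃* ↥(Cfsg.Lie.Sz F (2 ^ (m + 1)))) := by
  have : H2.SzField F m := ⟨hm, hF⟩
  have φ := H2.szEquiv F m
  have hc := (Nat.card_congr φ.toEquiv).symm.trans (H2.card_Sz m)
  have hs : IsSimpleGroup (Cfsg.Lie.Sz F (2 ^ (m + 1))) := by
    have := H2.isSimpleGroup (F := F) m
    exact φ.symm.isSimpleGroup
  have : Finite (Cfsg.Lie.Sz F (2 ^ (m + 1))) := .of_equiv _ φ.toEquiv
  have hX := H6.S3.isSz_of_simple (Cfsg.Lie.Sz F (2 ^ (m + 1))) (by
    by_contra e
    push Not at e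
    have e' := H2.commutator_eq_top (F := F) m
    rw [Subgroup.commutator_eq_bot_iff_le_centralizer.2 fun x _ y _ =>
      φ.injective (by rw [map_mul, map_mul, e])] at e'
    have := H2.nontrivial_Sz (F := F) m
    exact bot_ne_top e') (by
    have e : Fintype.card F % 3 = 2 := by
      rw [hF, pow_succ, pow_mul, Nat.mul_mod, Nat.pow_mod]; norm_num
    obtain ⟨k, hk⟩ : ∃ k, Fintype.card F = 3 * k + 2 := ⟨Fintype.card F / 3, by omega⟩
    rw [hc, hk]
    refine Nat.prime_three.not_dvd_mul (Nat.prime_three.not_dvd_mul (fun e => ?_) ?_) (by omega)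
    · have := Nat.prime_three.dvd_of_dvd_pow e; omega
    · rw [show (3 * k + 2) ^ 2 + 1 = 3 * (3 * k ^ 2 + 4 * k + 1) + 2 by ring]; omega)
  obtain ⟨h1, h2⟩ := H5.SzMax.main hX h
  exact H5.SzMax.iso_of_isSz h1 hF (h2.trans hc)

end Cfsg.Agent.S3728
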