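import Cfsg.Statements.S3732
import Cfsg.Agent.H8.Plane4

set_option autoImplicit false
open Cfsg

namespace Cfsg.Agent.S3732

/-- The Ostrom–Wagner Theorem. Let Π be a finite projective plane (points P, lines L) whose collineation group is 2-transitive on points: for any two ordered pairs of distinct points there is a permutation of the points, together with a compatible permutation of the lines preserving incidence, carrying the first pair to the second. Then Π is Desarguesian: there is a finite field F and a bijection from P onto the points of the projective plane over F (the 1-dimensional subspaces of F³) under which the lines of Π correspond exactly to the 2-dimensional subspaces of F³. -/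
theorem result
    {P L : Type*} [Membership P L] [Fintype P] [Fintype L] [Configuration.ProjectivePlane P L]
    (h2t : ∀ p₁ p₂ q₁ q₂ : P, p₁ ≠ p₂ → q₁ ≠ q₂ →
      ∃ (σ : Equiv.Perm P) (τ : Equiv.Perm L), (∀ (p : P) (l : L), σ p ∈ τ l ↔ p ∈ l) ∧ σ p₁ = q₁ ∧ σ p₂ = q₂) :
    ∃ (F : Type) (_ : Field F) (_ : Fintype F) (φ : P ≃ Projectivization F (Fin 3 → F)),
      (∀ l : L, ∃ W : Submodule F (Fin 3 → F), Module.finrank F W = 2 ∧
          ∀ p : P, p ∈ l ↔ (φ p).submodule ≤ W) ∧
      (∀ W : Submodule F (Fin 3 → F), Module.finrank F W = 2 →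
          ∃ l : L, ∀ p : P, p ∈ l ↔ (φ p).submodule ≤ W) := by
  classical
  open Configuration Finset in
  have D := (H8.SD.of_pp (inc := fun (p : P) (l : L) => p ∈ l) (k := ProjectivePlane.order P L + 1)
    (lam := 1)
    (fun l => by rw [← ProjectivePlane.pointCount_eq, pointCount, Nat.card_eq_fintype_card,
      Fintype.card_subtype])
    (fun l => by rw [← ProjectivePlane.lineCount_eq L l, lineCount, Nat.card_eq_fintype_card,
      Fintype.card_subtype])
    (fun {p q} h => by
      obtain ⟨l, h1, h2⟩ := HasLines.existsUnique_line P L p q h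
      exact card_eq_one.mpr ⟨l, eq_singleton_iff_unique_mem.mpr
        ⟨by simpa using h1, fun m hm => h2 m (by simpa using hm)⟩⟩)
    (by have := ProjectivePlane.one_lt_order P L; omega)
    (ProjectivePlane.card_points_eq_card_lines P L)).pl (ProjectivePlane.one_lt_order P L)
  obtain ⟨x₀, -⟩ := Configuration.ProjectivePlane.exists_config (P := P) (L := L)
  obtain ⟨F, _, _, φ, hφ⟩ := D.exists_coord (fun {x y x' y'} h h' => by
    obtain ⟨σ, τ, h1, h2⟩ := h2t x y x' y' h h'
    exact ⟨⟨(σ, τ), h1⟩, h2⟩) x₀
  refine ⟨F, inferInstance, inferInstance, φ, fun l => ?_, fun W hW => ?_⟩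
  · obtain ⟨x, h1, -⟩ := D.exists_pt l l
    obtain ⟨y, h2, h3, -⟩ := D.exists_on l x x
    exact ⟨_, H8.finrank_sup_submodule (φ.injective.ne h3), hφ h3 h2 h1⟩
  · obtain ⟨x, h1, h2⟩ := Submodule.exists_mem_ne_zero_of_ne_bot (p := W) (by
      rintro rfl; simp at hW)
    obtain ⟨y, h3, h4⟩ := SetLike.not_le_iff_exists.mp fun h : W ≤ Submodule.span F {x} => by
      have := Submodule.finrank_mono h
      rw [hW, finrank_span_singleton h2] at this
      omega
    have h5 : y ≠ 0 := fun e => h4 (e ▸ zero_mem _)
    have h6 : Projectivization.mk F x h2 ≠ Projectivization.mk F y h5 := fun e => h4 (by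
      rw [← Projectivization.submodule_mk x h2, e]
      exact Submodule.mem_span_singleton_self y)
    obtain ⟨l, h7, h8⟩ := D.exists_line (φ.symm (.mk F x h2)) (φ.symm (.mk F y h5))
    refine ⟨l, fun p => (hφ (φ.symm.injective.ne h6) h7 h8 p).trans ?_⟩
    rw [φ.apply_symm_apply, φ.apply_symm_apply, Submodule.eq_of_le_of_finrank_eq
      (sup_le (by simpa using h1) (by simpa using h3)) ((H8.finrank_sup_submodule h6).trans hW.symm)]

end Cfsg.Agent.S3732
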